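import Cfsg.Agent.H951.Decomp
import Cfsg.Prelude.Def_GeometricClasses
set_option linter.all false

-- part: H951/Decomp2
section
/-!
# Existence of permuted decompositions

* `pd_semisimple`: for `x^r = 1` (`r` prime, not the characteristic), `U` invariant with `dim U = a t` and
  `dim [U, x] ≤ c ⌊a/c⌋ t`, `c` the order of `|F|` modulo `r`: `U` is a sum of `t` invariant `a`-spaces.
* `cyc_of_irreducible`: if `x^r = z` with `X^r - z` irreducible, every invariant `U` is `W ⊕ x W ⊕ ⋯ ⊕ x^{r-1} W`.
* `pd_of_pow_eq`: such an `x` permutes a decomposition into `a`-spaces whenever `a t = dim V`.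
-/

set_option autoImplicit false

namespace Cfsg.Agent.H951

open Module Polynomial

variable {F V : Type*} [Field F] [AddCommGroup V] [Module F V]
variable {x y : Module.End F V} {a b r s t : ℕ} {U U' W : Submodule F V}

lemma injective_of_pow (hr : 0 < r) (hx : x ^ r = 1) : Function.Injective x := by
  obtain ⟨s, rfl⟩ : ∃ s, r = s + 1 := ⟨r - 1, by omega⟩
  intro u v huv
  have h : ∀ w : V, (x ^ s) (x w) = w := by
    intro w
    rw [← Module.End.mul_apply, ← pow_succ, hx]
    rfl
  rw [← h u, ← h v, huv]

lemma injective_of_pow' (hr : 0 < r) {z : F} (hz : z ≠ 0) (hx : x ^ r = z • 1) : Function.Injective x := by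
  obtain ⟨s, rfl⟩ : ∃ s, r = s + 1 := ⟨r - 1, by omega⟩
  intro u v huv
  have h : ∀ w : V, (x ^ s) (x w) = z • w := by
    intro w
    rw [← Module.End.mul_apply, ← pow_succ, hx]
    rfl
  have := h u
  rw [huv, h v] at this
  exact (smul_right_injective V hz this).symm

lemma pd_semisimple [Fintype F] [FiniteDimensional F V] [Fact r.Prime] (hr : (r : F) ≠ 0) (hx : x ^ r = 1)
    (hU : Inv x U) (hd : finrank F U = a * t)
    (hM : finrank F ↥(U ⊓ cm x) ≤ orderOf (Fintype.card F : ZMod r) * (a / orderOf (Fintype.card F : ZMod r)) * t) :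
    PD x a U t := by
  set c := orderOf (Fintype.card F : ZMod r) with hc
  have hcpos : 0 < c := ord_pos hr
  have hinj : Function.Injective x := injective_of_pow (Fact.out : r.Prime).pos hx
  induction t generalizing U with
  | zero =>
    have : U = ⊥ := Submodule.finrank_eq_zero.1 (by rw [hd]; simp)
    subst this
    exact PD.zero
  | succ t ih =>
    obtain ⟨M, hMd⟩ := ord_dvd_finrank hx (hU.inf inv_cm)
      (inf_fx_of_le_cm hr hx (inf_le_right : U ⊓ cm x ≤ cm x))
    rw [← hc] at hMd
    have hadd := finrank_inf_add hr hx hU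
    have hmod := Nat.div_add_mod a c
    set A := a / c with hA
    set j := min M A with hj
    have hjM : j ≤ M := min_le_left _ _
    have hjA : j ≤ A := min_le_right _ _
    obtain ⟨C, hCle, hCi, hCd⟩ := exists_inv_finrank hr hx (hU.inf inv_cm)
      (inf_le_right : U ⊓ cm x ≤ cm x) (j := j) (by rw [hMd, ← hc]; exact Nat.mul_le_mul_left _ hjM)
    rw [← hc] at hCd
    have hcja : c * j ≤ a := (Nat.mul_le_mul_left _ hjA).trans (by omega)
    have hkey : a - c * j ≤ finrank F ↥(U ⊓ fx x) := by
      rw [hMd] at hadd hM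
      rcases Nat.le_total M A with h | h
      · have : j = M := min_eq_left h
        rw [this]
        rw [hd, mul_add, mul_one] at hadd
        have := Nat.zero_le (a * t)
        omega
      · have hjA' : j = A := min_eq_right h
        rw [hjA']
        rw [hd] at hadd
        have h1 : a * (t + 1) = c * A * (t + 1) + a % c * (t + 1) := by
          conv_lhs => rw [← hmod]
          ring
        have h2 : a % c ≤ a % c * (t + 1) := Nat.le_mul_of_pos_right _ (Nat.succ_pos t)
        omega
    obtain ⟨E, hEle, hEd⟩ := exists_sub (U ⊓ fx x) hkey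
    obtain ⟨T, hTi, hT1, hT2, hT3, hT4⟩ := exists_compl_split hr hx hU hEle hCle hCi
    have hEC : E ⊓ C = ⊥ := by
      rw [eq_bot_iff, ← (isCompl_fx_cm hr hx).inf_eq_bot]
      exact inf_le_inf (hEle.trans inf_le_right) (hCle.trans inf_le_right)
    have hECd : finrank F ↥(E ⊔ C) = a := by
      rw [finrank_sup_of_disj hEC, hEd, hCd]; omega
    have hTd := finrank_sup_of_disj hT1
    rw [hT2, hECd, hd] at hTd
    have hTd' : finrank F T = a * t := by rw [mul_add, mul_one] at hTd; omega
    have hTM : finrank F ↥(T ⊓ cm x) ≤ c * A * t := by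
      rw [hCd, hMd] at hT4
      rcases Nat.le_total M A with h | h
      · have : j = M := min_eq_left h
        rw [this] at hT4
        have : finrank F ↥(T ⊓ cm x) = 0 := by omega
        rw [this]; exact Nat.zero_le _
      · have hjA' : j = A := min_eq_right h
        rw [hjA'] at hT4
        rw [hMd, mul_add, mul_one] at hM
        omega
    have h1 := ih hTi hTd' hTM
    have hECi : Inv x (E ⊔ C) := (inv_of_le_fx (hEle.trans inf_le_right)).sup hCi
    have h2 := (h1.sup (pd_one hinj hECi hECd) (by rw [inf_comm]; exact hT1))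
    rwa [sup_comm, hT2] at h2

/-- If `x^r = z` with `X^r - z` irreducible then every invariant subspace is a cyclic piece. -/
lemma cyc_of_irreducible [FiniteDimensional F V] (hr : 0 < r) {z : F} (hP : Irreducible (X ^ r - C z))
    (hx : x ^ r = z • 1) (hz : z ≠ 0) (hU : Inv x U) : ∃ m, Cyc x r m U := by
  have hPx : aeval x (X ^ r - C z) = 0 := by
    rw [map_sub, map_pow, aeval_X, aeval_C, hx, Algebra.smul_def, mul_one, sub_self]
  have hss : x.IsSemisimple :=
    Module.End.isSemisimple_of_squarefree_aeval_eq_zero hP.squarefree hPx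
  have hnat : (X ^ r - C z).natDegree = r := natDegree_X_pow_sub_C
  have hmap : ∀ W : Submodule F V, W.map (x ^ r) = W := by
    intro W
    rw [hx, Submodule.map_smul _ _ _ hz, map_one']
  induction hn : finrank F U using Nat.strong_induction_on generalizing U with
  | _ n ih =>
    by_cases h0 : U = ⊥
    · subst h0; exact ⟨0, Cyc.zero⟩
    · obtain ⟨S, hSU, hS⟩ := exists_irr hU h0
      obtain ⟨T, hT, hTU, hST, hST'⟩ := exists_rel_compl hss hS.2.1 hU hSU
      have hSd : finrank F S = r := by
        rw [hS.finrank_eq_natDegree hP (fun v _ => by rw [hPx]; rfl), hnat]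
      have h1 := finrank_sup_of_disj hST
      rw [hST', hn, hSd] at h1
      obtain ⟨m, hm⟩ := ih (finrank F T) (by omega) hT rfl
      obtain ⟨v, hv, hv0⟩ := (Submodule.ne_bot_iff _).1 hS.1
      have hcyc : Cyc x r 1 S := by
        have hle : (⨆ j : Fin r, (F ∙ v).map (x ^ (j : ℕ))) ≤ S := by
          refine iSup_le fun j => ?_
          rw [Submodule.map_span_le]
          intro w hw
          rw [Set.mem_singleton_iff] at hw
          subst hw
          exact hS.2.1.pow _ _ hv
        have hinv : Inv x (⨆ j : Fin r, (F ∙ v).map (x ^ (j : ℕ))) := by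
          have e : (⨆ j : Fin r, (F ∙ v).map (x ^ (j : ℕ)))
              = Submodule.span F (Set.range fun j : Fin (X ^ r - C z : F[X]).natDegree => (x ^ (j : ℕ)) v) := by
            rw [hnat, Submodule.span_range_eq_iSup]
            simp only [Submodule.map_span, Set.image_singleton]
          rw [e]
          exact inv_span_pow hP.ne_zero (by rw [hPx]; rfl)
        refine ⟨F ∙ v, finrank_span_singleton hv0, ?_, by rw [hSd, one_mul], hmap _⟩
        refine (hS.2.2 _ hle hinv).resolve_left fun hbot => hv0 ?_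
        rw [← Submodule.mem_bot F, ← hbot]
        exact (Cyc.le_of hr rfl) (Submodule.mem_span_singleton_self v)
      refine ⟨1 + m, ?_⟩
      rw [← hST']
      exact hcyc.sup hr hm hST

lemma pd_of_irreducible [FiniteDimensional F V] (hrp : r.Prime) {z : F} (hP : Irreducible (X ^ r - C z))
    (hx : x ^ r = z • 1) (hz : z ≠ 0) (hd : finrank F V = a * t) : PD x a ⊤ t := by
  have hr := hrp.pos
  have hinj := injective_of_pow' hr hz hx
  have hmap : ∀ W : Submodule F V, W.map (x ^ r) = W := by
    intro W
    rw [hx, Submodule.map_smul _ _ _ hz, map_one']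
  obtain ⟨m, hm⟩ := cyc_of_irreducible hr hP hx hz (inv_top (x := x))
  have hfr : a * t = m * r := by
    obtain ⟨_, _, _, h, _⟩ := hm
    rw [finrank_top] at h
    rw [← h, hd]
  by_cases hra : r ∣ a
  · obtain ⟨a', rfl⟩ := hra
    have : m = a' * t := by
      have : r * m = r * (a' * t) := by rw [mul_comm r m, ← hfr, mul_assoc]
      exact Nat.eq_of_mul_eq_mul_left hr this
    rw [this] at hm
    rw [mul_comm r a']
    exact hm.pd_inv hr hinj hmap
  · have hrt : r ∣ t := by
      have : r ∣ a * t := by rw [hfr]; exact dvd_mul_left _ _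
      exact (hrp.dvd_mul.1 this).resolve_left hra
    obtain ⟨t', rfl⟩ := hrt
    have : m = a * t' := by
      have : r * m = r * (a * t') := by rw [mul_comm r m, ← hfr]; ring
      exact Nat.eq_of_mul_eq_mul_left hr this
    rw [this] at hm
    exact hm.pd_mul hr hinj hmap

end Cfsg.Agent.H951
end

-- part: H951/Decomp3
section
/-!
# Permuted decompositions for involutions in characteristic 2 and for free summands
-/

set_option autoImplicit false

namespace Cfsg.Agent.H951

open Module Polynomial

variable {F V : Type*} [Field F] [AddCommGroup V] [Module F V]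
variable {x y : Module.End F V} {a b r s t : ℕ} {U U' W : Submodule F V}

/-- A subspace of the fixed space is decomposed trivially. -/
lemma pd_of_le_fx [FiniteDimensional F V] (hinj : Function.Injective x) (h : U ≤ fx x) (hd : finrank F U = a * t) :
    PD x a U t := by
  induction t generalizing U with
  | zero =>
    have : U = ⊥ := Submodule.finrank_eq_zero.1 (by rw [hd]; simp)
    subst this
    exact PD.zero
  | succ t ih =>
    rw [mul_add, mul_one] at hd
    obtain ⟨W₁, W₂, e1, e2, e3, e4⟩ := exists_split U hd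
    have h1 : W₁ ≤ fx x := (le_sup_left.trans e4.le).trans h
    have h2 : W₂ ≤ fx x := (le_sup_right.trans e4.le).trans h
    rw [← e4]
    exact (ih h1 e1).sup (pd_one hinj (inv_of_le_fx h2) e2) e3

lemma disj_of_finrank [FiniteDimensional F V] (h : finrank F U + finrank F W ≤ finrank F ↥(U ⊔ W)) :
    U ⊓ W = ⊥ := by
  have := Submodule.finrank_sup_add_finrank_inf_eq U W
  exact Submodule.finrank_eq_zero.1 (by omega)

lemma Cyc.finrank (h : Cyc x r a U) : finrank F U = a * r := by
  obtain ⟨_, _, _, h, _⟩ := h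
  exact h

/-- `S` a free part (2-cycles), `T` fixed: all decompositions into `a`-spaces exist. -/
lemma pd_mono_two [FiniteDimensional F V] (hinj : Function.Injective x)
    (hx' : ∀ W : Submodule F V, W.map (x ^ 2) = W) {S T : Submodule F V} (hS : Cyc x 2 s S) (hT : T ≤ fx x)
    (hST : S ⊓ T = ⊥) (hd : 2 * s + finrank F T = a * t) : PD x a (S ⊔ T) t := by
  induction t using Nat.strong_induction_on generalizing s S T with
  | _ t ih =>
    have hSd := hS.finrank
    have hSTd := finrank_sup_of_disj hST
    rcases Nat.eq_zero_or_pos t with ht | ht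
    · subst ht
      have : S ⊔ T = ⊥ := Submodule.finrank_eq_zero.1 (by rw [hSTd, hSd]; omega)
      rw [this]; exact PD.zero
    obtain ⟨t', rfl⟩ : ∃ t', t = t' + 1 := ⟨t - 1, by omega⟩
    by_cases hcase : Even a ∨ 1 ≤ finrank F T
    · -- split off an invariant a-space
      set j := min s (a / 2) with hj
      have hjs : j ≤ s := min_le_left _ _
      have hja : j ≤ a / 2 := min_le_right _ _
      have he : a - 2 * j ≤ finrank F T := by
        rcases Nat.le_total s (a / 2) with h | h
        · have : j = s := min_eq_left h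
          rw [this]
          rw [mul_add, mul_one] at hd
          have := Nat.zero_le (a * t')
          omega
        · have : j = a / 2 := min_eq_right h
          rw [this]
          rcases hcase with hev | h1
          · obtain ⟨k, hk⟩ := hev
            omega
          · omega
      obtain ⟨s', hs'⟩ : ∃ s', s = j + s' := ⟨s - j, by omega⟩
      rw [hs'] at hS
      obtain ⟨S₁, S₂, h1, h2, h3, h4⟩ := Cyc.split (by norm_num) hx' hS
      obtain ⟨T₁, T₂, k1, k2, k3, k4⟩ := exists_split T (a := a - 2 * j) (b := finrank F T - (a - 2 * j)) (by omega)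
      have hT₁ : T₁ ≤ fx x := (le_sup_left.trans k4.le).trans hT
      have hT₂ : T₂ ≤ fx x := (le_sup_right.trans k4.le).trans hT
      have hS₁d := h1.finrank
      have hS₂d := h2.finrank
      have hsup : (S₁ ⊔ T₁) ⊔ (S₂ ⊔ T₂) = S ⊔ T := by rw [sup_sup_sup_comm, h4, k4]
      have hd1 : S₁ ⊓ T₁ = ⊥ := by
        rw [eq_bot_iff, ← hST]
        exact inf_le_inf (le_sup_left.trans h4.le) (le_sup_left.trans k4.le)
      have hd2 : S₂ ⊓ T₂ = ⊥ := by
        rw [eq_bot_iff, ← hST]
        exact inf_le_inf (le_sup_right.trans h4.le) (le_sup_right.trans k4.le)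
      have e1 := finrank_sup_of_disj hd1
      have e2 := finrank_sup_of_disj hd2
      have hdis : (S₁ ⊔ T₁) ⊓ (S₂ ⊔ T₂) = ⊥ := by
        apply disj_of_finrank
        rw [hsup, hSTd, e1, e2]
        omega
      rw [mul_add, mul_one] at hd
      have h5 := ih t' (by omega) h2 hT₂ hd2 (by omega)
      have h6 : PD x a (S₁ ⊔ T₁) 1 :=
        pd_one hinj ((h1.inv (by norm_num)).sup (inv_of_le_fx hT₁)) (by rw [e1]; omega)
      rw [← hsup, sup_comm]
      exact h5.sup h6 (by rw [inf_comm]; exact hdis)
    · push Not at hcase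
      obtain ⟨hodd, hT0⟩ := hcase
      have hT0' : finrank F T = 0 := by omega
      have hTbot : T = ⊥ := Submodule.finrank_eq_zero.1 hT0'
      subst hTbot
      rw [sup_bot_eq]
      rw [Nat.not_even_iff_odd] at hodd
      -- 2 s = a (t' + 1) so t' + 1 is even
      have h2t : 2 ∣ t' + 1 := by
        have h2 : 2 ∣ a * (t' + 1) := ⟨s, by rw [hT0'] at hd; omega⟩
        rcases (Nat.prime_two.dvd_mul).1 h2 with h | h
        · exact absurd (even_iff_two_dvd.2 h) (Nat.not_even_iff_odd.2 hodd)
        · exact h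
      obtain ⟨t₂, ht₂⟩ := h2t
      have : s = a * t₂ := by
        have : 2 * s = 2 * (a * t₂) := by rw [hT0', add_zero, ht₂] at hd; rw [hd]; ring
        omega
      rw [this] at hS
      rw [ht₂]
      exact hS.pd_mul (by norm_num) hinj hx'

lemma iSup_fin2 (f : Fin 2 → Submodule F V) : (⨆ j, f j) = f 0 ⊔ f 1 := by
  apply le_antisymm
  · refine iSup_le fun j => ?_
    fin_cases j
    · exact le_sup_left
    · exact le_sup_right
  · exact sup_le (le_iSup f 0) (le_iSup f 1)

/-- In characteristic 2 an operator with `x² = 1` is a sum of free part and a fixed part. -/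
lemma exists_mono_two [FiniteDimensional F V] (h2 : (2 : F) = 0) (hx : x ^ 2 = 1) :
    ∃ s S T, Cyc x 2 s S ∧ T ≤ fx x ∧ S ⊓ T = ⊥ ∧ S ⊔ T = ⊤ := by
  have hNN : ∀ v, (x - 1) ((x - 1) v) = 0 := by
    intro v
    have h : x (x v) = v := by rw [← Module.End.mul_apply, ← pow_two, hx]; rfl
    simp only [LinearMap.sub_apply, Module.End.one_apply, map_sub, h]
    have : v - x v - (x v - v) = (2 : F) • (v - x v) := by rw [two_smul]; abel
    rw [this, h2, zero_smul]
  obtain ⟨W, hW⟩ := (fx x).exists_isCompl
  have hcmfx : cm x ≤ fx x := by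
    intro v hv
    obtain ⟨w, rfl⟩ := mem_cm.1 hv
    have := hNN w
    rw [fx, LinearMap.mem_ker]
    simpa using this
  obtain ⟨T, hT1, hT2, hT3⟩ := exists_rel_compl' hcmfx
  have hmapN : W.map (x - 1) = cm x := by
    apply le_antisymm
    · exact LinearMap.map_le_range
    · intro v hv
      obtain ⟨w, rfl⟩ := hv
      have hw : w ∈ fx x ⊔ W := by rw [hW.sup_eq_top]; trivial
      obtain ⟨p, hp, q, hq, rfl⟩ := Submodule.mem_sup.1 hw
      refine ⟨q, hq, ?_⟩
      rw [map_add, show (x - 1) p = 0 from LinearMap.mem_ker.1 hp, zero_add]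
  have hsup : W ⊔ W.map x = W ⊔ cm x := by
    apply le_antisymm
    · refine sup_le le_sup_left ?_
      rintro _ ⟨w, hw, rfl⟩
      have : x w = w + (x - 1) w := by simp
      rw [this]
      exact Submodule.add_mem_sup hw ⟨w, rfl⟩
    · refine sup_le le_sup_left ?_
      rw [← hmapN]
      rintro _ ⟨w, hw, rfl⟩
      have : (x - 1) w = -w + x w := by simp [sub_eq_neg_add]
      rw [this]
      exact Submodule.add_mem_sup (W.neg_mem hw) ⟨w, hw, rfl⟩
  have hdis : W ⊓ cm x = ⊥ := by
    rw [eq_bot_iff, ← hW.inf_eq_bot, inf_comm]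
    exact inf_le_inf hcmfx le_rfl
  have hfr1 : finrank F W = finrank F ↥(cm x) := by
    have h1 := Submodule.finrank_add_eq_of_isCompl hW
    have h2 := LinearMap.finrank_range_add_finrank_ker (x - 1)
    rw [fx] at h1
    rw [cm]
    omega
  have hfr : finrank F ↥(W ⊔ cm x) = finrank F W * 2 := by
    rw [finrank_sup_of_disj hdis, ← hfr1]; ring
  refine ⟨finrank F W, W ⊔ cm x, T, ⟨W, rfl, ?_, hfr, ?_⟩, hT1, ?_, ?_⟩
  · rw [iSup_fin2, ← hsup]
    simp [map_one']
  · rw [hx, map_one']
  · apply disj_of_finrank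
    have h3 := finrank_sup_of_disj hT2
    rw [hT3] at h3
    have h4 : (W ⊔ cm x) ⊔ T = ⊤ := by rw [sup_assoc, hT3, sup_comm]; exact hW.sup_eq_top
    have h5 := Submodule.finrank_add_eq_of_isCompl hW
    rw [h4, finrank_top, hfr]
    omega
  · rw [sup_assoc, hT3, sup_comm]; exact hW.sup_eq_top

end Cfsg.Agent.H951
end

-- part: H951/DecompBridge
section
/-!
# From `PD` to `Cfsg.Geo.IsMDecomposition`, and matrices with scalar powers
-/

set_option autoImplicit false

namespace Cfsg.Agent.H951

open Module Polynomial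

variable {ι : Type} [Fintype ι] [DecidableEq ι] {F : Type*} [Field F]

lemma toLin'_pow_eq {M : Matrix ι ι F} {r : ℕ} {z : F} (h : M ^ r = z • (1 : Matrix ι ι F)) :
    (Matrix.toLin' M) ^ r = z • (1 : Module.End F (ι → F)) := by
  rw [← Matrix.toLin'_pow, h, map_smul, Matrix.toLin'_one]
  rfl

lemma ne_zero_of_pow_scalar [Nonempty ι] {M : Matrix ι ι F} (hdet : M.det = 1) {r : ℕ} {z : F}
    (h : M ^ r = z • (1 : Matrix ι ι F)) : z ≠ 0 := by
  rintro rfl
  have := congrArg Matrix.det h
  rw [Matrix.det_pow, hdet, one_pow, zero_smul, Matrix.det_zero] at this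
  exact one_ne_zero this

omit [DecidableEq ι] in
lemma isMDecomposition_of {a t : ℕ} (ht : 2 ≤ t) (ha : 1 ≤ a) {D : Fin t → Submodule F (ι → F)}
    (h1 : ∀ i, finrank F (D i) = a) (h2 : (⨆ i, D i) = ⊤) (h3 : finrank F ↥(⊤ : Submodule F (ι → F)) = a * t) :
    Cfsg.Geo.IsMDecomposition a D := by
  refine ⟨ht, ha, h1, indep_of_finrank D ?_, h2⟩
  rw [h2, h3]
  simp [h1, mul_comm]

lemma exists_decomp_of_pd {a t : ℕ} (ht : 2 ≤ t) (ha : 1 ≤ a) {x : Module.End F (ι → F)}
    (h : PD x a ⊤ t) : ∃ D : Fin t → Submodule F (ι → F), Cfsg.Geo.IsMDecomposition a D ∧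
      ∃ σ : Equiv.Perm (Fin t), ∀ j, (D j).map x = D (σ j) := by
  obtain ⟨D, h1, h2, h3, σ, h4⟩ := h
  exact ⟨D, isMDecomposition_of ht ha h1 h2 h3, σ, h4⟩

end Cfsg.Agent.H951
end
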