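import Cfsg.Agent.H951.Step_mg
import Cfsg.Agent.H951.Move
import Mathlib
set_option linter.all false

-- part: H951/JT
section
/-!
# Jordan types of skew nilpotent operators on form spaces

`Blk B N U s a`: `U` is nondegenerate, `N`-invariant, and `N` has `s` Jordan blocks of size `a` on `U` (expressed by
ranks of powers). `JT B N W μ`: `W` is an orthogonal sum of blocks of the types in `μ`.
-/

set_option autoImplicit false
set_option linter.unusedSectionVars false
set_option linter.unusedVariables false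

namespace Cfsg.Agent.H951

open Module Polynomial

variable {F V : Type*} [Field F] [AddCommGroup V] [Module F V] [FiniteDimensional F V]
variable {σ : F →+* F} {ε : F} {B : V → V → F} {N N' : Module.End F V} {U W W' : Submodule F V}

structure Blk (B : V → V → F) (N : Module.End F V) (U : Submodule F V) (s a : ℕ) : Prop where
  inv : Inv N U
  nd : Nd B U
  rank : ∀ j, finrank F ↥(U.map (N ^ j)) = s * (a - j)

inductive JT (B : V → V → F) (N : Module.End F V) : Submodule F V → Multiset (ℕ × ℕ) → Prop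
  | zero : JT B N ⊥ 0
  | cons {U W : Submodule F V} {s a : ℕ} {μ : Multiset (ℕ × ℕ)} (hU : Blk B N U s a) (hW : JT B N W μ)
      (h : ∀ u ∈ U, ∀ w ∈ W, B u w = 0) : JT B N (U ⊔ W) ((s, a) ::ₘ μ)

lemma Blk.finrank_eq {s a : ℕ} (h : Blk B N U s a) : finrank F U = s * a := by
  have := h.rank 0
  rwa [pow_zero, Module.End.one_eq_id, Submodule.map_id, Nat.sub_zero] at this

lemma map_pow_le (h : Inv N U) (j : ℕ) : U.map (N ^ j) ≤ U := by
  rintro _ ⟨u, hu, rfl⟩
  exact h.pow j u hu

lemma JT.inv {μ : Multiset (ℕ × ℕ)} (h : JT B N W μ) : Inv N W := by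
  induction h with
  | zero => exact inv_bot
  | cons hU _ _ ih => exact hU.inv.sup ih

lemma JT.nd {μ : Multiset (ℕ × ℕ)} (hB : Frm σ ε B) (h : JT B N W μ) : Nd B W := by
  induction h with
  | zero => exact nd_bot
  | cons hU _ ho ih => exact (hB.nd_sup hU.nd ih ho).1

lemma finrank_map_sup (hB : Frm σ ε B) (hU : Inv N U) (hW : Inv N W) (hd : U ⊓ W = ⊥) (j : ℕ) :
    finrank F ↥((U ⊔ W).map (N ^ j)) = finrank F ↥(U.map (N ^ j)) + finrank F ↥(W.map (N ^ j)) := by
  rw [Submodule.map_sup]
  apply finrank_sup_of_disj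
  rw [eq_bot_iff, ← hd]
  exact inf_le_inf (map_pow_le hU j) (map_pow_le hW j)

lemma JT.rank {μ : Multiset (ℕ × ℕ)} (hB : Frm σ ε B) (h : JT B N W μ) (j : ℕ) :
    finrank F ↥(W.map (N ^ j)) = (μ.map fun x => x.1 * (x.2 - j)).sum := by
  induction h with
  | zero => simp
  | cons hU hW ho ih =>
    rw [finrank_map_sup hB hU.inv hW.inv (hB.nd_sup hU.nd (hW.nd hB) ho).2, hU.rank, ih, Multiset.map_cons,
      Multiset.sum_cons]

lemma JT.finrank_eq {μ : Multiset (ℕ × ℕ)} (hB : Frm σ ε B) (h : JT B N W μ) :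
    finrank F W = (μ.map fun x => x.1 * x.2).sum := by
  have := h.rank hB 0
  rwa [pow_zero, Module.End.one_eq_id, Submodule.map_id] at this

lemma JT.sub {μ ν : Multiset (ℕ × ℕ)} (h : JT B N W μ) (hν : ν ≤ μ) : ∃ W' ≤ W, JT B N W' ν := by
  classical
  induction h generalizing ν with
  | zero =>
    have := Multiset.le_zero.1 hν
    subst this
    exact ⟨⊥, le_rfl, JT.zero⟩
  | @cons U W s a μ hU hW ho ih =>
    by_cases hm : (s, a) ∈ ν
    · obtain ⟨ν', rfl⟩ := Multiset.exists_cons_of_mem hm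
      obtain ⟨W', hW'W, hW'⟩ := ih ((Multiset.cons_le_cons_iff _).1 hν)
      exact ⟨U ⊔ W', sup_le_sup_left hW'W U, JT.cons hU hW' fun u hu w hw => ho u hu w (hW'W hw)⟩
    · obtain ⟨W', hW'W, hW'⟩ := ih ((Multiset.le_cons_of_notMem hm).1 hν)
      exact ⟨W', hW'W.trans le_sup_right, hW'⟩

lemma JT.add {μ ν : Multiset (ℕ × ℕ)} (hB : Frm σ ε B) (h : JT B N W μ) (h' : JT B N W' ν)
    (ho : ∀ u ∈ W, ∀ w ∈ W', B u w = 0) : JT B N (W ⊔ W') (μ + ν) := by
  induction h with
  | zero => rw [bot_sup_eq, zero_add]; exact h'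
  | @cons U W s a μ hU hW hUW ih =>
    rw [sup_assoc, Multiset.cons_add]
    refine JT.cons hU (ih fun u hu w hw => ho u (Submodule.mem_sup_right hu) w hw) ?_
    intro u hu w hw
    obtain ⟨b, hb, c, hc, rfl⟩ := Submodule.mem_sup.1 hw
    rw [hB.add_right, hUW u hu b hb, ho u (Submodule.mem_sup_left hu) c hc, add_zero]

lemma map_pow_congr (hU : Inv N U) (hN : ∀ u ∈ U, N u = N' u) (j : ℕ) : U.map (N ^ j) = U.map (N' ^ j) := by
  have h : ∀ u ∈ U, (N ^ j) u = (N' ^ j) u := by
    induction j with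
    | zero => intro u _; rfl
    | succ j ih =>
      intro u hu
      rw [pow_succ, pow_succ, Module.End.mul_apply, Module.End.mul_apply, ← hN u hu, ih _ (hU u hu)]
  ext v
  constructor
  · rintro ⟨u, hu, rfl⟩; exact ⟨u, hu, (h u hu).symm⟩
  · rintro ⟨u, hu, rfl⟩; exact ⟨u, hu, h u hu⟩

lemma Blk.congr {s a : ℕ} (h : Blk B N U s a) (hN : ∀ u ∈ U, N u = N' u) : Blk B N' U s a where
  inv u hu := by rw [← hN u hu]; exact h.inv u hu
  nd := h.nd
  rank j := by rw [← map_pow_congr h.inv hN, h.rank]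

lemma JT.congr {μ : Multiset (ℕ × ℕ)} (h : JT B N W μ) (hN : ∀ u ∈ W, N u = N' u) : JT B N' W μ := by
  induction h with
  | zero => exact JT.zero
  | cons hU hW ho ih =>
    exact JT.cons (hU.congr fun u hu => hN u (Submodule.mem_sup_left hu))
      (ih fun u hu => hN u (Submodule.mem_sup_right hu)) ho

/-- Existence of a decomposition into blocks. -/
theorem exists_jt (hB : Frm σ ε B) (hperp : ∀ W, Inv N W → Inv N (hB.perp W)) {P : ℕ → ℕ → Prop}
    (step : ∀ W, Inv N W → Nd B W → W ≠ ⊥ → ∃ U ≤ W, ∃ s a, P s a ∧ 0 < s * a ∧ Blk B N U s a)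
    (W : Submodule F V) (hW : Inv N W) (hWn : Nd B W) : ∃ μ : Multiset (ℕ × ℕ), JT B N W μ ∧ ∀ x ∈ μ, P x.1 x.2 := by
  induction hn : finrank F W using Nat.strong_induction_on generalizing W with
  | _ n ih =>
    by_cases h0 : W = ⊥
    · subst h0; exact ⟨0, JT.zero, fun x hx => absurd hx (Multiset.notMem_zero x)⟩
    obtain ⟨U, hUW, s, a, hP, hpos, hU⟩ := step W hW hWn h0
    have h1 := hB.finrank_perp_inf hU.nd hUW
    rw [hU.finrank_eq] at h1
    obtain ⟨μ, hμ, hμP⟩ := ih (finrank F ↥(hB.perp U ⊓ W)) (by omega) (hB.perp U ⊓ W) ((hperp _ hU.inv).inf hW)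
      (hB.nd_perp_inf hWn hU.nd hUW) rfl
    refine ⟨(s, a) ::ₘ μ, ?_, ?_⟩
    · have := JT.cons hU hμ fun u hu w hw => hB.eq_zero_comm.1 (hw.1 u hu)
      rwa [hB.sup_perp_inf hU.nd hUW] at this
    · intro x hx
      rcases Multiset.mem_cons.1 hx with rfl | hx
      · exact hP
      · exact hμP x hx

/-! ### skew operators -/

/-- `N` is skew. -/
def Skew (B : V → V → F) (N : Module.End F V) : Prop := ∀ u v, B (N u) v = - B u (N v)

lemma Skew.pow (hB : Frm σ ε B) (hN : Skew B N) (i : ℕ) (u v : V) : B ((N ^ i) u) v = (-1) ^ i * B u ((N ^ i) v) := by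
  induction i generalizing u v with
  | zero => simp
  | succ i ih =>
    have e1 : (N ^ (i + 1)) u = N ((N ^ i) u) := by rw [pow_succ', Module.End.mul_apply]
    have e2 : (N ^ (i + 1)) v = (N ^ i) (N v) := by rw [pow_succ, Module.End.mul_apply]
    rw [e1, e2, hN, ih]
    ring

lemma Skew.inv_perp (hB : Frm σ ε B) (hN : Skew B N) (hW : Inv N W) : Inv N (hB.perp W) := by
  intro v hv w hw
  rw [hN, hv _ (hW w hw), neg_zero]

/-- Blocks from generators with nonsingular top Gram matrix. -/
theorem blk_of_gens (hB : Frm σ ε B) (hN : Skew B N) {s k : ℕ} (u : Fin s → V) (hk : ∀ b, (N ^ (k + 1)) (u b) = 0)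
    (hG : ∀ c : Fin s → F, (∀ b, ∑ b', c b' * B (u b') ((N ^ k) (u b)) = 0) → c = 0) :
    Blk B N (Submodule.span F (Set.range fun x : Fin (k + 1) × Fin s => (N ^ (x.1 : ℕ)) (u x.2))) s (k + 1) := by
  classical
  set w : Fin (k + 1) × Fin s → V := fun x => (N ^ (x.1 : ℕ)) (u x.2) with hw
  set U := Submodule.span F (Set.range w) with hU
  have hwU : ∀ x, w x ∈ U := fun x => Submodule.subset_span ⟨x, rfl⟩
  have hbig : ∀ (i : ℕ) (b : Fin s), k < i → (N ^ i) (u b) = 0 := by
    intro i b hi
    obtain ⟨t, rfl⟩ : ∃ t, i = t + (k + 1) := ⟨i - (k + 1), by omega⟩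
    rw [pow_add, Module.End.mul_apply, hk, map_zero]
  have key : ∀ c : Fin (k + 1) × Fin s → F, (∀ x, B (∑ y, c y • w y) (w x) = 0) → c = 0 := by
    intro c hc
    by_contra hne
    have hex : ∃ i : ℕ, ∃ (hi : i < k + 1) (b : Fin s), c (⟨i, hi⟩, b) ≠ 0 := by
      obtain ⟨x, hx⟩ := Function.ne_iff.1 hne
      exact ⟨x.1, x.1.2, x.2, hx⟩
    obtain ⟨hi, b₀, hb₀⟩ := Nat.find_spec hex
    set i := Nat.find hex with hidef
    have hmin : ∀ j, (hj : j < k + 1) → j < i → ∀ b, c (⟨j, hj⟩, b) = 0 := by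
      intro j hj hji b
      by_contra h
      exact Nat.find_min hex hji ⟨hj, b, h⟩
    have h1 : (fun b' => c (⟨i, hi⟩, b')) = 0 := by
      apply hG
      intro b
      have h2 := hc (⟨k - i, by omega⟩, b)
      rw [hB.sum_left, Fintype.sum_prod_type, Finset.sum_eq_single (⟨i, hi⟩ : Fin (k + 1))] at h2
      · have h3 : ∀ b' : Fin s, B (c (⟨i, hi⟩, b') • w (⟨i, hi⟩, b')) (w (⟨k - i, by omega⟩, b)) =
            (-1) ^ i * (c (⟨i, hi⟩, b') * B (u b') ((N ^ k) (u b))) := by
          intro b'
          rw [hB.smul_left, hw]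
          simp only
          rw [hN.pow hB, ← Module.End.mul_apply, ← pow_add, Nat.add_sub_cancel' (by omega : i ≤ k)]
          ring
        rw [Finset.sum_congr rfl fun b' _ => h3 b', ← Finset.mul_sum] at h2
        exact (mul_eq_zero.1 h2).resolve_left (pow_ne_zero _ (neg_ne_zero.2 one_ne_zero))
      · intro j _ hji
        apply Finset.sum_eq_zero
        intro b' _
        rcases lt_trichotomy (j : ℕ) i with h4 | h4 | h4
        · have : c (j, b') = 0 := hmin j j.2 h4 b'
          rw [this, zero_smul, hB.zero_left]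
        · exact absurd (Fin.ext h4) hji
        · rw [hB.smul_left, hw]
          simp only
          rw [hN.pow hB, ← Module.End.mul_apply, ← pow_add, hbig _ _ (by omega), hB.zero_right, mul_zero, mul_zero]
      · intro h; exact absurd (Finset.mem_univ _) h
    exact hb₀ (congrFun h1 b₀)
  have hli : LinearIndependent F w := by
    rw [Fintype.linearIndependent_iff]
    intro c hc x
    have := key c fun x => by rw [hc, hB.zero_left]
    exact congrFun this x
  refine ⟨?_, ?_, ?_⟩
  · intro v hv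
    induction hv using Submodule.span_induction with
    | mem v hv =>
      obtain ⟨x, rfl⟩ := hv
      by_cases h : (x.1 : ℕ) + 1 < k + 1
      · have : N (w x) = w (⟨x.1 + 1, h⟩, x.2) := by
          rw [hw]; simp only
          rw [pow_succ', Module.End.mul_apply]
        rw [this]
        exact hwU _
      · have : N (w x) = 0 := by
          rw [hw]; simp only
          rw [← Module.End.mul_apply, ← pow_succ', hbig _ _ (by omega)]
        rw [this]
        exact Submodule.zero_mem _
    | zero => rw [map_zero]; exact Submodule.zero_mem _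
    | add a b _ _ ha hb => rw [map_add]; exact Submodule.add_mem _ ha hb
    | smul t a _ ha => rw [map_smul]; exact Submodule.smul_mem _ t ha
  · intro v hv hv0
    obtain ⟨c, rfl⟩ := (Submodule.mem_span_range_iff_exists_fun F).1 hv
    by_contra hno
    push Not at hno
    apply hv0
    have := key c fun x => hno _ (hwU x)
    rw [this]
    simp
  · intro j
    have h1 : U.map (N ^ j) = Submodule.span F (Set.range fun x : Fin (k + 1 - j) × Fin s => (N ^ ((x.1 : ℕ) + j)) (u x.2)) := by
      rw [hU, Submodule.map_span]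
      apply le_antisymm
      · rw [Submodule.span_le]
        rintro _ ⟨_, ⟨x, rfl⟩, rfl⟩
        have h2 : (N ^ j) (w x) = (N ^ ((x.1 : ℕ) + j)) (u x.2) := by
          rw [hw]; simp only
          rw [← Module.End.mul_apply, ← pow_add, add_comm]
        by_cases h : (x.1 : ℕ) < k + 1 - j
        · exact Submodule.subset_span ⟨(⟨x.1, h⟩, x.2), h2.symm⟩
        · rw [SetLike.mem_coe, h2, hbig _ _ (by omega)]
          exact Submodule.zero_mem _
      · rw [Submodule.span_le]
        rintro _ ⟨x, rfl⟩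
        apply Submodule.subset_span
        refine ⟨w (⟨x.1, by omega⟩, x.2), ⟨_, rfl⟩, ?_⟩
        rw [hw]; simp only
        rw [← Module.End.mul_apply, ← pow_add, add_comm]
    rw [h1]
    have h2 : LinearIndependent F (fun x : Fin (k + 1 - j) × Fin s => (N ^ ((x.1 : ℕ) + j)) (u x.2)) := by
      have := hli.comp (fun x : Fin (k + 1 - j) × Fin s => ((⟨x.1 + j, by omega⟩ : Fin (k + 1)), x.2)) (by
        intro x y hxy
        simp only [Prod.mk.injEq, Fin.mk.injEq] at hxy
        exact Prod.ext (Fin.ext (by omega)) hxy.2)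
      exact this
    rw [finrank_span_eq_card h2, Fintype.card_prod, Fintype.card_fin, Fintype.card_fin, mul_comm]

/-- The largest power of `N` that does not vanish on `W`. -/
lemma exists_top_power {n : ℕ} (hN : N ^ n = 0) (h0 : W ≠ ⊥) :
    ∃ k, k < n ∧ (∃ w ∈ W, (N ^ k) w ≠ 0) ∧ ∀ w ∈ W, (N ^ (k + 1)) w = 0 := by
  classical
  have hex : ∃ k, ∀ w ∈ W, (N ^ k) w = 0 := ⟨n, fun w _ => by rw [hN]; rfl⟩
  have hpos : Nat.find hex ≠ 0 := by
    intro h
    have h1 := Nat.find_spec hex
    rw [h] at h1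
    apply h0
    rw [eq_bot_iff]
    intro w hw
    have := h1 w hw
    simpa using this
  have hle : Nat.find hex ≤ n := Nat.find_min' hex fun w _ => by rw [hN]; rfl
  refine ⟨Nat.find hex - 1, by omega, ?_, ?_⟩
  · have h2 := Nat.find_min hex (Nat.sub_lt (Nat.pos_of_ne_zero hpos) one_pos)
    push Not at h2
    exact h2
  · rw [Nat.sub_add_cancel (Nat.pos_of_ne_zero hpos)]
    exact Nat.find_spec hex

/-- Hermitian case: single Jordan blocks. -/
theorem step_herm (hσ : σ ≠ RingHom.id F) (hB : Frm σ 1 B) (hN : Skew B N) {n : ℕ} (hn : N ^ n = 0)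
    (W : Submodule F V) (hW : Inv N W) (hWn : Nd B W) (h0 : W ≠ ⊥) :
    ∃ U ≤ W, ∃ s a, (s = 1 ∧ 0 < a ∧ a ≤ n) ∧ 0 < s * a ∧ Blk B N U s a := by
  obtain ⟨k, hkn, ⟨w, hw, hwk⟩, hk⟩ := exists_top_power hn h0
  have h1 : ∃ u ∈ W, B u ((N ^ k) u) ≠ 0 := by
    by_contra hno
    push Not at hno
    have h2 := herm_polar (B := fun u v => B u ((N ^ k) v)) (U := W) (η := (-1) ^ k) hσ
      (fun u v => by
        show B v ((N ^ k) u) = (-1) ^ k * σ (B u ((N ^ k) v))
        rw [← one_mul (σ _), ← hB.herm, hN.pow hB, ← mul_assoc, ← mul_pow]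
        norm_num) (fun u v w => hB.add_left _ _ _)
      (fun a u v => hB.smul_left _ _ _) hno
    obtain ⟨v, hv, hwv⟩ := hWn _ (hW.pow k w hw) hwk
    exact hwv (hB.eq_zero_comm.1 (h2 v hv w hw))
  obtain ⟨u, hu, huu⟩ := h1
  refine ⟨_, ?_, 1, k + 1, ⟨rfl, by omega, by omega⟩, by omega,
    blk_of_gens hB hN (s := 1) (k := k) (fun _ => u) (fun _ => hk u hu) ?_⟩
  · rw [Submodule.span_le]
    rintro _ ⟨x, rfl⟩
    exact hW.pow _ u hu
  · intro c hc
    have h3 := hc 0
    rw [Fin.sum_univ_one] at h3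
    ext b
    rw [Subsingleton.elim b 0]
    exact (mul_eq_zero.1 h3).resolve_right huu

end Cfsg.Agent.H951
end

-- part: H951/Cayley
section
/-!
# Isometries of order `p` and skew nilpotent operators (Cayley transform)
-/

set_option autoImplicit false
set_option linter.unusedSectionVars false
set_option linter.unusedVariables false

namespace Cfsg.Agent.H951

open Module Polynomial

variable {F V : Type*} [Field F] [AddCommGroup V] [Module F V] [FiniteDimensional F V]
variable {σ : F →+* F} {ε : F} {B : V → V → F} {N : Module.End F V} {y : Module.End F V} {W : Submodule F V} {p : ℕ}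

/-- The endomorphism ring has characteristic `p`, in the form needed here. -/
lemma add_pow_p [hp : Fact p.Prime] [CharP F p] {a b : Module.End F V} (h : Commute a b) : (a + b) ^ p = a ^ p + b ^ p := by
  rcases subsingleton_or_nontrivial V with hV | hV
  · exact LinearMap.ext fun v => Subsingleton.elim _ _
  · have : CharP (Module.End F V) p := charP_of_injective_algebraMap (algebraMap F (Module.End F V)).injective p
    exact add_pow_char_of_commute p h

lemma sub_pow_p [hp : Fact p.Prime] [CharP F p] {a b : Module.End F V} (h : Commute a b) : (a - b) ^ p = a ^ p - b ^ p := by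
  rcases subsingleton_or_nontrivial V with hV | hV
  · exact LinearMap.ext fun v => Subsingleton.elim _ _
  · have : CharP (Module.End F V) p := charP_of_injective_algebraMap (algebraMap F (Module.End F V)).injective p
    exact sub_pow_char_of_commute p h

/-- `p` odd: a skew `N` with `N^p = 0` gives an isometry `y` of order dividing `p` with the same invariant
subspaces. -/
theorem exists_isom_of_skew_odd [Fact p.Prime] [CharP F p] (hp2 : p ≠ 2) (hB : Frm σ ε B) (hN : Skew B N) (hNp : N ^ p = 0) :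
    ∃ y : Module.End F V, Isom B y ∧ y ^ p = 1 ∧ (∀ W, Inv y W ↔ Inv N W) ∧ (y = 1 → N = 0) := by
  have hpP : p.Prime := Fact.out
  have h2 : (2 : F) ≠ 0 := by
    intro h
    have h3 : ((2 : ℕ) : F) = 0 := by exact_mod_cast h
    rw [CharP.cast_eq_zero_iff F p] at h3
    exact hp2 ((Nat.prime_dvd_prime_iff_eq hpP Nat.prime_two).1 h3)
  set S : Module.End F V := ∑ i ∈ Finset.range p, N ^ i with hS
  have hS1 : (1 - N) * S = 1 := by
    have := mul_neg_geom_sum N p
    rw [hNp, sub_zero] at this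
    exact this
  have hS2 : S * (1 - N) = 1 := by
    have := geom_sum_mul_neg N p
    rw [hNp, sub_zero] at this
    exact this
  set y := (1 + N) * S with hy
  have hyN : y * (1 - N) = 1 + N := by rw [hy, mul_assoc, hS2, mul_one]
  have hcS : Commute (1 + N) S := by
    have : Commute N S := by
      rw [hS]
      exact Commute.sum_right _ _ _ fun i _ => Commute.pow_right rfl i
    exact (Commute.one_left S).add_left this
  have hsurj : ∀ v, ∃ u, v = (1 - N) u := fun v => ⟨S v, by
    rw [← Module.End.mul_apply, hS1]; rfl⟩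
  have hyp : y ^ p = 1 := by
    have e1 : (1 + N) ^ p = 1 := by
      rw [add_pow_p (Commute.one_left N), one_pow, hNp, add_zero]
    have e2 : (1 - N) ^ p = 1 := by
      rw [sub_pow_p (Commute.one_left N), one_pow, hNp, sub_zero]
    have e3 : S ^ p = 1 := by
      have h3 : ((1 - N) * S) ^ p = (1 - N) ^ p * S ^ p := by
        apply Commute.mul_pow
        rw [Commute, SemiconjBy, hS1, hS2]
      rw [hS1, one_pow, e2, one_mul] at h3
      exact h3.symm
    rw [hy, hcS.mul_pow, e1, e3, one_mul]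
  have hrel : (1 + y) * N = y - 1 := by
    have h3 : y - y * N = 1 + N := by rw [← hyN, mul_sub, mul_one]
    rw [sub_eq_iff_eq_add] at h3
    rw [add_mul, one_mul, eq_sub_iff_add_eq]
    calc N + y * N + 1 = 1 + N + y * N := by abel
      _ = y := h3.symm
  refine ⟨y, ?_, hyp, ?_, ?_⟩
  · intro u v
    obtain ⟨a, rfl⟩ := hsurj u
    obtain ⟨b, rfl⟩ := hsurj v
    rw [← Module.End.mul_apply, ← Module.End.mul_apply, hyN]
    simp only [LinearMap.add_apply, LinearMap.sub_apply, Module.End.one_apply]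
    simp only [hB.add_left, hB.add_right, hB.sub_left, hB.sub_right, hN a b, hN a (N b)]
    ring
  · intro W
    constructor
    · intro hW
      -- N is a polynomial in y: (1 + y) T = 2 with T = Σ (-y)^i
      set T : Module.End F V := ∑ i ∈ Finset.range p, (-y) ^ i with hT
      have hodd : Odd p := hpP.odd_of_ne_two hp2
      have hT1 : T * (1 + y) = (2 : F) • (1 : Module.End F V) := by
        have := geom_sum_mul_neg (-y) p
        rw [sub_neg_eq_add, hodd.neg_pow, hyp, sub_neg_eq_add] at this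
        rw [this, two_smul]
      have hTW : Inv T W := by
        intro v hv
        rw [hT, LinearMap.sum_apply]
        refine W.sum_mem fun i _ => ?_
        have hny : Inv (-y) W := fun w hw => W.neg_mem (hW w hw)
        exact hny.pow i v hv
      intro v hv
      have h3 : (2 : F) • N v = T ((y - 1) v) := by
        rw [← hrel, ← Module.End.mul_apply, ← mul_assoc, hT1]
        rfl
      have h4 : (2 : F) • N v ∈ W := by
        rw [h3]
        exact hTW _ (W.sub_mem (hW v hv) hv)
      have := W.smul_mem (2 : F)⁻¹ h4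
      rwa [smul_smul, inv_mul_cancel₀ h2, one_smul] at this
    · intro hW v hv
      have hSv : S v ∈ W := by
        rw [hS, LinearMap.sum_apply]
        exact W.sum_mem fun i _ => hW.pow i v hv
      rw [hy, Module.End.mul_apply]
      exact W.add_mem hSv (hW _ hSv)
  · intro h
    rw [h, sub_self] at hrel
    have h3 : (2 : F) • N = 0 := by
      rw [← hrel]
      rw [two_smul, add_mul, one_mul]
    exact (smul_eq_zero.1 h3).resolve_left h2

/-- Conversely. -/
theorem exists_skew_of_isom_odd [Fact p.Prime] [CharP F p] (hp2 : p ≠ 2) (hB : Frm σ ε B) (hy : Isom B y) (hyp : y ^ p = 1) :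
    ∃ N : Module.End F V, Skew B N ∧ N ^ p = 0 ∧ (∀ W, Inv y W ↔ Inv N W) := by
  have hpP : p.Prime := Fact.out
  have h2 : (2 : F) ≠ 0 := by
    intro h
    have h3 : ((2 : ℕ) : F) = 0 := by exact_mod_cast h
    rw [CharP.cast_eq_zero_iff F p] at h3
    exact hp2 ((Nat.prime_dvd_prime_iff_eq hpP Nat.prime_two).1 h3)
  have hodd : Odd p := hpP.odd_of_ne_two hp2
  set T : Module.End F V := ∑ i ∈ Finset.range p, (-y) ^ i with hT
  have hT1 : T * (1 + y) = (2 : F) • (1 : Module.End F V) := by
    have := geom_sum_mul_neg (-y) p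
    rw [sub_neg_eq_add, hodd.neg_pow, hyp, sub_neg_eq_add] at this
    rw [this, two_smul]
  have hT2 : (1 + y) * T = (2 : F) • (1 : Module.End F V) := by
    have := mul_neg_geom_sum (-y) p
    rw [sub_neg_eq_add, hodd.neg_pow, hyp, sub_neg_eq_add] at this
    rw [this, two_smul]
  have hcT : Commute y T := by
    rw [hT]
    exact Commute.sum_right _ _ _ fun i _ => ((Commute.refl y).neg_right).pow_right i
  set N : Module.End F V := (2 : F)⁻¹ • (T * (y - 1)) with hN
  have hrel : (1 + y) * N = y - 1 := by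
    rw [hN, mul_smul_comm, ← mul_assoc, hT2, smul_mul_assoc, one_mul, smul_smul, inv_mul_cancel₀ h2, one_smul]
  have hsurj : ∀ v, ∃ u, v = (1 + y) u := fun v => ⟨(2 : F)⁻¹ • T v, by
    rw [map_smul, ← Module.End.mul_apply, hT2, LinearMap.smul_apply, smul_smul, inv_mul_cancel₀ h2, one_smul]; rfl⟩
  have hcN : Commute (1 + y) N := by
    rw [hN]
    apply Commute.smul_right
    apply Commute.mul_right
    · exact (Commute.one_left T).add_left hcT
    · exact (Commute.one_left _).add_left ((Commute.refl y).sub_right (Commute.one_right y))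
  have hNr : N * (1 + y) = y - 1 := by rw [← hcN.eq, hrel]
  have hNp : N ^ p = 0 := by
    have e1 : ((1 + y) * N) ^ p = (1 + y) ^ p * N ^ p := hcN.mul_pow p
    have e2 : (y - 1) ^ p = 0 := by
      rw [sub_pow_p (Commute.one_right y), hyp, one_pow, sub_self]
    have e3 : (1 + y) ^ p = (2 : F) • 1 := by
      rw [add_pow_p (Commute.one_left y), hyp, one_pow, two_smul]
    rw [hrel, e2, e3, smul_mul_assoc, one_mul] at e1
    exact (smul_eq_zero.1 e1.symm).resolve_left h2
  refine ⟨N, ?_, hNp, ?_⟩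
  · intro u v
    obtain ⟨a, rfl⟩ := hsurj u
    obtain ⟨b, rfl⟩ := hsurj v
    rw [← Module.End.mul_apply, ← Module.End.mul_apply, hNr]
    simp only [LinearMap.add_apply, LinearMap.sub_apply, Module.End.one_apply]
    simp only [hB.add_left, hB.add_right, hB.sub_left, hB.sub_right, hy a b]
    ring
  · intro W
    constructor
    · intro hW
      have hTW : Inv T W := by
        intro v hv
        rw [hT, LinearMap.sum_apply]
        refine W.sum_mem fun i _ => ?_
        have hny : Inv (-y) W := fun w hw => W.neg_mem (hW w hw)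
        exact hny.pow i v hv
      intro v hv
      rw [hN, LinearMap.smul_apply, Module.End.mul_apply]
      exact W.smul_mem _ (hTW _ (W.sub_mem (hW v hv) hv))
    · intro hW v hv
      set S : Module.End F V := ∑ i ∈ Finset.range p, N ^ i with hS
      have hS1 : (1 - N) * S = 1 := by
        have := mul_neg_geom_sum N p
        rw [hNp, sub_zero] at this
        exact this
      -- y (1 - N) = 1 + N
      have h3 : y * (1 - N) = 1 + N := by
        have h4 : N + y * N = y - 1 := by rw [← hrel, add_mul, one_mul]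
        rw [eq_sub_iff_add_eq] at h4
        rw [mul_sub, mul_one, sub_eq_iff_eq_add]
        calc y = N + y * N + 1 := h4.symm
          _ = 1 + N + y * N := by abel
      have h4 : y = (1 + N) * S := by rw [← h3, mul_assoc, hS1, mul_one]
      have hSv : S v ∈ W := by
        rw [hS, LinearMap.sum_apply]
        exact W.sum_mem fun i _ => hW.pow i v hv
      rw [h4, Module.End.mul_apply]
      exact W.add_mem hSv (hW _ hSv)

lemma inv_one_add_iff : Inv (1 + N) W ↔ Inv N W := by
  constructor
  · intro h v hv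
    have := W.sub_mem (h v hv) hv
    rw [LinearMap.add_apply, Module.End.one_apply, add_sub_cancel_left] at this
    exact this
  · intro h v hv
    exact W.add_mem hv (h v hv)

/-- Characteristic 2. -/
theorem exists_isom_of_skew_two [CharP F 2] (hB : Frm σ ε B) (hN : Skew B N) (hNp : N ^ 2 = 0) :
    ∃ y : Module.End F V, Isom B y ∧ y ^ 2 = 1 ∧ (∀ W, Inv y W ↔ Inv N W) ∧ (y = 1 → N = 0) := by
  refine ⟨1 + N, ?_, ?_, fun W => inv_one_add_iff, fun h => by simpa using h⟩
  · intro u v
    have h1 : B (N u) (N v) = 0 := by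
      rw [hN, ← Module.End.mul_apply, ← pow_two, hNp, LinearMap.zero_apply, hB.zero_right, neg_zero]
    simp only [LinearMap.add_apply, Module.End.one_apply, hB.add_left, hB.add_right, h1, hN u v]
    ring
  · have : Fact (Nat.Prime 2) := ⟨Nat.prime_two⟩
    rw [add_pow_p (p := 2) (Commute.one_left N), hNp, one_pow, add_zero]

theorem exists_skew_of_isom_two [CharP F 2] (hB : Frm σ ε B) (hy : Isom B y) (hyp : y ^ 2 = 1) :
    ∃ N : Module.End F V, Skew B N ∧ N ^ 2 = 0 ∧ (∀ W, Inv y W ↔ Inv N W) := by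
  have h2 : (2 : F) = 0 := by
    have := CharP.cast_eq_zero F 2
    exact_mod_cast this
  refine ⟨y - 1, ?_, ?_, fun W => ?_⟩
  · intro u v
    have h1 : B (y u) v = B u (y v) := by
      have h3 : y (y v) = v := by rw [← Module.End.mul_apply, ← pow_two, hyp]; rfl
      conv_lhs => rw [← h3]
      rw [hy]
    simp only [LinearMap.sub_apply, Module.End.one_apply, hB.sub_left, hB.sub_right, h1]
    linear_combination (B u (y v) - B u v) * h2
  · have : Fact (Nat.Prime 2) := ⟨Nat.prime_two⟩
    rw [sub_pow_p (p := 2) (Commute.one_right y), hyp, one_pow, sub_self]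
  · have h3 := inv_one_add_iff (N := y - 1) (W := W)
    rwa [add_sub_cancel] at h3

/-- All characteristics. -/
theorem exists_isom_of_skew [Fact p.Prime] [CharP F p] (hB : Frm σ ε B) (hN : Skew B N) (hNp : N ^ p = 0) :
    ∃ y : Module.End F V, Isom B y ∧ y ^ p = 1 ∧ (∀ W, Inv y W ↔ Inv N W) ∧ (y = 1 → N = 0) := by
  by_cases hp : p = 2
  · subst hp; exact exists_isom_of_skew_two hB hN hNp
  · exact exists_isom_of_skew_odd hp hB hN hNp

theorem exists_skew_of_isom [Fact p.Prime] [CharP F p] (hB : Frm σ ε B) (hy : Isom B y) (hyp : y ^ p = 1) :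
    ∃ N : Module.End F V, Skew B N ∧ N ^ p = 0 ∧ (∀ W, Inv y W ↔ Inv N W) := by
  by_cases hp : p = 2
  · subst hp; exact exists_skew_of_isom_two hB hy hyp
  · exact exists_skew_of_isom_odd hp hB hy hyp

end Cfsg.Agent.H951
end

-- part: H951/JReal
section
/-!
# Realisation of Jordan types of skew nilpotent operators
-/

set_option autoImplicit false
set_option linter.unusedSectionVars false
set_option linter.unusedVariables false

namespace Cfsg.Agent.H951

open Module Polynomial

variable {F V : Type*} [Field F] [AddCommGroup V] [Module F V] [FiniteDimensional F V]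
variable {σ : F →+* F} {ε : F} {B : V → V → F} {N N' : Module.End F V} {U W W' : Submodule F V}

section model

variable (s k : ℕ)

/-- Extension by zero. -/
def zx {F : Type*} [Field F] {s k : ℕ} (u : Fin (k + 1) → Fin s → F) (i : ℕ) : Fin s → F :=
  if h : i < k + 1 then u ⟨i, h⟩ else 0

variable {s k}

lemma zx_add {F : Type*} [Field F] (u v : Fin (k + 1) → Fin s → F) (i : ℕ) : zx (u + v) i = zx u i + zx v i := by
  unfold zx; split_ifs <;> simp

lemma zx_smul {F : Type*} [Field F] (a : F) (u : Fin (k + 1) → Fin s → F) (i : ℕ) : zx (a • u) i = a • zx u i := by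
  unfold zx; split_ifs <;> simp

lemma zx_coe {F : Type*} [Field F] (u : Fin (k + 1) → Fin s → F) (i : Fin (k + 1)) : zx u i = u i := by
  unfold zx; rw [dif_pos i.2]

/-- The form on the multiplicity space. -/
def gf (σ : F →+* F) (G : Fin s → Fin s → F) (x y : Fin s → F) : F := ∑ b, ∑ b', x b * G b b' * σ (y b')

lemma gf_add_left (G : Fin s → Fin s → F) (x x' y : Fin s → F) : gf σ G (x + x') y = gf σ G x y + gf σ G x' y := by
  simp only [gf, Pi.add_apply, add_mul, Finset.sum_add_distrib]

lemma gf_smul_left (G : Fin s → Fin s → F) (a : F) (x y : Fin s → F) : gf σ G (a • x) y = a * gf σ G x y := by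
  simp only [gf, Pi.smul_apply, smul_eq_mul, Finset.mul_sum, mul_assoc]

lemma gf_zero_right (G : Fin s → Fin s → F) (x : Fin s → F) : gf σ G x 0 = 0 := by simp [gf]

lemma gf_zero_left (G : Fin s → Fin s → F) (x : Fin s → F) : gf σ G 0 x = 0 := by simp [gf]

lemma gf_herm {η : F} {G : Fin s → Fin s → F} (h2 : ∀ a, σ (σ a) = a) (hG : ∀ b b', G b' b = η * σ (G b b'))
    (x y : Fin s → F) : gf σ G y x = η * σ (gf σ G x y) := by
  simp only [gf, map_sum, map_mul, h2, Finset.mul_sum]
  rw [Finset.sum_comm]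
  refine Finset.sum_congr rfl fun b _ => Finset.sum_congr rfl fun b' _ => ?_
  rw [hG b b']
  ring

/-- The model form. -/
def mf (σ : F →+* F) (G : Fin s → Fin s → F) (u v : Fin (k + 1) → Fin s → F) : F :=
  ∑ i ∈ Finset.range (k + 1), (-1) ^ i * gf σ G (zx u i) (zx v (k - i))

/-- The model operator. -/
def mN (F : Type*) [Field F] (s k : ℕ) : Module.End F (Fin (k + 1) → Fin s → F) where
  toFun u i := if (i : ℕ) = 0 then 0 else zx u (i - 1)
  map_add' u v := by
    funext i; simp only [Pi.add_apply]; split_ifs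
    · simp
    · rw [zx_add]
  map_smul' a u := by
    funext i; simp only [Pi.smul_apply, RingHom.id_apply]; split_ifs
    · simp
    · rw [zx_smul]

lemma zx_mN (u : Fin (k + 1) → Fin s → F) (i : ℕ) (hi : i < k + 1) :
    zx (mN F s k u) i = if i = 0 then 0 else zx u (i - 1) := by
  conv_lhs => rw [zx, dif_pos hi]
  rfl

lemma frm_mf {G : Fin s → Fin s → F} (hε : ε ≠ 0) (h2 : ∀ a, σ (σ a) = a)
    (hG : ∀ b b', G b' b = ((-1) ^ k * ε) * σ (G b b')) : Frm σ ε (mf (k := k) σ G) where
  add_left u v w := by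
    simp only [mf, zx_add, gf_add_left, mul_add, Finset.sum_add_distrib]
  smul_left a u v := by
    simp only [mf, zx_smul, gf_smul_left, Finset.mul_sum]
    exact Finset.sum_congr rfl fun i _ => by ring
  herm u v := by
    simp only [mf, map_sum, Finset.mul_sum]
    rw [← Finset.sum_range_reflect]
    refine Finset.sum_congr rfl fun i hi => ?_
    rw [Finset.mem_range] at hi
    have e1 : k + 1 - 1 - i = k - i := by omega
    have e2 : k - (k - i) = i := by omega
    rw [e1, e2, gf_herm h2 hG, map_mul, map_pow, map_neg, map_one]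
    have e3 : (-1 : F) ^ (k - i) * (-1) ^ k = (-1) ^ i := by
      have e4 : (-1 : F) ^ k = (-1) ^ (k - i) * (-1) ^ i := by rw [← pow_add]; congr 1; omega
      rw [e4, ← mul_assoc, ← mul_pow]; norm_num
    calc (-1 : F) ^ (k - i) * ((-1) ^ k * ε * σ (gf σ G (zx u i) (zx v (k - i))))
        = ((-1 : F) ^ (k - i) * (-1) ^ k) * ε * σ (gf σ G (zx u i) (zx v (k - i))) := by ring
      _ = _ := by rw [e3]; ring
  sigma_sq := h2
  eps_ne := hε

/-- The generator `e_i ⊗ x`. -/
def gen (F : Type*) [Field F] {s : ℕ} (k : ℕ) (i : ℕ) (x : Fin s → F) : Fin (k + 1) → Fin s → F :=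
  fun j => if (j : ℕ) = i then x else 0

lemma zx_gen (i j : ℕ) (x : Fin s → F) (hj : j < k + 1) : zx (gen F k i x) j = if j = i then x else 0 := by
  rw [zx, dif_pos hj]; rfl

lemma mf_gen_right {G : Fin s → Fin s → F} (u : Fin (k + 1) → Fin s → F) (i : ℕ) (hi : i ≤ k) (x : Fin s → F) :
    mf σ G u (gen F k (k - i) x) = (-1) ^ i * gf σ G (zx u i) x := by
  rw [mf, Finset.sum_eq_single i]
  · rw [zx_gen _ _ _ (by omega), if_pos rfl]
  · intro j hj hji
    rw [Finset.mem_range] at hj
    rw [zx_gen _ _ _ (by omega), if_neg (by omega), gf_zero_right, mul_zero]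
  · intro h; exact absurd (Finset.mem_range.2 (by omega)) h

lemma mN_gen (i : ℕ) (x : Fin s → F) : mN F s k (gen F k i x) = gen F k (i + 1) x := by
  funext j
  show (if (j : ℕ) = 0 then 0 else zx (gen F k i x) (j - 1)) = if (j : ℕ) = i + 1 then x else 0
  have hj := j.2
  by_cases h : (j : ℕ) = 0
  · rw [if_pos h, if_neg (by omega)]
  · rw [if_neg h, zx_gen _ _ _ (by omega)]
    by_cases h' : (j : ℕ) = i + 1
    · rw [if_pos h', if_pos (by omega)]
    · rw [if_neg h', if_neg (by omega)]

lemma mN_pow_gen (t : ℕ) (i : ℕ) (x : Fin s → F) : (mN F s k ^ t) (gen F k i x) = gen F k (i + t) x := by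
  induction t generalizing i with
  | zero => rfl
  | succ t ih => rw [pow_succ, Module.End.mul_apply, mN_gen, ih]; congr 1; omega

lemma gen_big (i : ℕ) (hi : k < i) (x : Fin s → F) : gen F k i x = 0 := by
  funext j
  show (if (j : ℕ) = i then x else 0) = 0
  rw [if_neg (by omega)]

lemma eq_sum_gen (u : Fin (k + 1) → Fin s → F) : u = ∑ i : Fin (k + 1), gen F k i (u i) := by
  funext j
  rw [Finset.sum_apply, Finset.sum_eq_single j]
  · show u j = if (j : ℕ) = j then u j else 0
    rw [if_pos rfl]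
  · intro i _ hij
    show (if (j : ℕ) = i then u i else 0) = 0
    rw [if_neg (fun h => hij (Fin.ext h.symm))]
  · intro h; exact absurd (Finset.mem_univ _) h

lemma mN_pow_eq_zero : mN F s k ^ (k + 1) = 0 := by
  apply LinearMap.ext
  intro u
  rw [eq_sum_gen u, map_sum]
  simp only [mN_pow_gen]
  rw [Finset.sum_eq_zero fun i _ => gen_big _ (by omega) _]
  rfl

lemma skew_mN (G : Fin s → Fin s → F) : Skew (mf (k := k) σ G) (mN F s k) := by
  intro u v
  simp only [mf]
  rw [Finset.sum_range_succ', Finset.sum_range_succ]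
  have h1 : zx (mN F s k u) 0 = 0 := by rw [zx_mN _ _ (by omega), if_pos rfl]
  have h2 : zx (mN F s k v) (k - k) = 0 := by rw [Nat.sub_self, zx_mN _ _ (by omega), if_pos rfl]
  rw [h1, h2, gf_zero_left, gf_zero_right, mul_zero, mul_zero, add_zero, add_zero, ← Finset.sum_neg_distrib]
  refine Finset.sum_congr rfl fun i hi => ?_
  rw [Finset.mem_range] at hi
  rw [zx_mN _ _ (by omega), if_neg (by omega), zx_mN _ _ (by omega), if_neg (by omega), Nat.add_sub_cancel,
    show k - (i + 1) = k - i - 1 by omega]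
  ring

lemma nd_mf {G : Fin s → Fin s → F} (hG : ∀ c : Fin s → F, (∀ b, ∑ b', c b' * G b' b = 0) → c = 0) :
    Nd (mf (k := k) σ G) (⊤ : Submodule F (Fin (k + 1) → Fin s → F)) := by
  classical
  intro u _ hu
  obtain ⟨i, hi⟩ := Function.ne_iff.1 hu
  have h1 : ∃ b, ∑ b', u i b' * G b' b ≠ 0 := by
    by_contra hno
    push Not at hno
    exact hi (hG _ hno)
  obtain ⟨b, hb⟩ := h1
  refine ⟨gen F k (k - i) (Pi.single b 1), trivial, ?_⟩
  rw [mf_gen_right u i (by omega), zx_coe]
  apply mul_ne_zero (pow_ne_zero _ (neg_ne_zero.2 one_ne_zero))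
  have h2 : gf σ G (u i) (Pi.single b 1) = ∑ b', u i b' * G b' b := by
    rw [gf]
    refine Finset.sum_congr rfl fun b' _ => ?_
    rw [Finset.sum_eq_single b]
    · simp
    · intro c _ hc; rw [Pi.single_eq_of_ne hc, map_zero, mul_zero]
    · intro h; exact absurd (Finset.mem_univ _) h
  rw [h2]
  exact hb

end model

/-- Realisation of a block on a nondegenerate subspace of the right dimension. -/
theorem exists_block_real [Finite F] (hB : Frm σ ε B) (hK : Kind σ ε B) (h2 : σ = RingHom.id F → (2 : F) ≠ 0) {s k : ℕ}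
    (G : Fin s → Fin s → F) (hG1 : ∀ b b', G b' b = ((-1) ^ k * ε) * σ (G b b'))
    (hG2 : ∀ c : Fin s → F, (∀ b, ∑ b', c b' * G b' b = 0) → c = 0) (hU : Nd B U)
    (hd : finrank F U = s * (k + 1)) :
    ∃ N : Module.End F V, Skew B N ∧ (∀ v ∈ hB.perp U, N v = 0) ∧ (∀ v, N v ∈ U) ∧ N ^ (k + 1) = 0 ∧
      Blk B N U s (k + 1) := by
  classical
  have hB' : Frm σ ε (mf (k := k) σ G) := frm_mf hB.eps_ne hB.sigma_sq hG1
  have hK' : Kind σ ε (mf (k := k) σ G) := by
    rcases hK with ⟨h, rfl⟩ | ⟨h, rfl, -⟩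
    · exact Or.inl ⟨h, rfl⟩
    · refine Or.inr ⟨h, rfl, fun v => ?_⟩
      have h3 := hB'.herm v v
      rw [h] at h3 ⊢
      rw [RingHom.id_apply] at h3
      have h4 : 2 * mf (k := k) (RingHom.id F) G v v = 0 := by linear_combination h3
      exact (mul_eq_zero.1 h4).resolve_left (h2 h)
  obtain ⟨φ, hφ⟩ := exists_equiv_of_top hB hB' hK hK' hU (nd_mf hG2) (by
    rw [hd, finrank_pi_fintype]
    simp [mul_comm])
  let A : Module.End F U := φ.conj (mN F s k)
  have hA : ∀ u, A u = φ (mN F s k (φ.symm u)) := fun u => rfl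
  let N : Module.End F V := lift hB hU A
  have hNφ : ∀ v, N (φ v : V) = φ (mN F s k v) := by
    intro v
    show lift hB hU A (φ v : V) = _
    rw [lift_of_mem, hA, φ.symm_apply_apply]
  have hNφp : ∀ (t : ℕ) v, (N ^ t) (φ v : V) = φ ((mN F s k ^ t) v) := by
    intro t
    induction t with
    | zero => intro v; rfl
    | succ t ih => intro v; rw [pow_succ, pow_succ, Module.End.mul_apply, Module.End.mul_apply, hNφ, ih]
  have hNp : ∀ v ∈ hB.perp U, N v = 0 := fun v hv => lift_of_perp hB hU A hv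
  have hNm : ∀ v, N v ∈ U := fun v => lift_mem hB hU A v
  have hsk : Skew B N := by
    intro v v'
    obtain ⟨u, w, hw, rfl⟩ := exists_decomp hB hU v
    obtain ⟨u', w', hw', rfl⟩ := exists_decomp hB hU v'
    obtain ⟨t, rfl⟩ := φ.surjective u
    obtain ⟨t', rfl⟩ := φ.surjective u'
    rw [map_add, map_add, hNp w hw, hNp w' hw', add_zero, add_zero, hB.add_right, hB.add_left,
      (mem_perp_iff' hw' (hNm _)).1, (mem_perp_iff' hw (hNm _)).2, add_zero, add_zero, hNφ, hNφ, hφ, hφ]
    exact skew_mN G t t'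
  have hNk : N ^ (k + 1) = 0 := by
    apply LinearMap.ext
    intro v
    obtain ⟨u, w, hw, rfl⟩ := exists_decomp hB hU v
    obtain ⟨t, rfl⟩ := φ.surjective u
    have h5 : (N ^ (k + 1)) w = 0 := by
      rw [pow_succ, Module.End.mul_apply, hNp w hw, map_zero]
    rw [map_add, h5, hNφp, mN_pow_eq_zero]
    simp
  refine ⟨N, hsk, hNp, hNm, hNk, ?_⟩
  have hblk := blk_of_gens hB hsk (s := s) (k := k) (fun b => (φ (gen F k 0 (Pi.single b 1)) : V)) (fun b => by
    rw [hNk]; rfl) (by
    intro c hc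
    apply hG2
    intro b
    have h6 := hc b
    rw [← h6]
    refine Finset.sum_congr rfl fun b' _ => ?_
    rw [hNφp, hφ, mN_pow_gen, zero_add]
    have h7 := mf_gen_right (σ := σ) (G := G) (gen F k 0 (Pi.single b' 1)) 0 (Nat.zero_le k) (Pi.single b 1)
    rw [Nat.sub_zero] at h7
    rw [h7, zx_gen _ _ _ (by omega), if_pos rfl, pow_zero, one_mul]
    congr 1
    rw [gf, Finset.sum_eq_single b', Finset.sum_eq_single b]
    · simp
    · intro c _ hc; rw [Pi.single_eq_of_ne hc, map_zero, mul_zero]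
    · intro h; exact absurd (Finset.mem_univ _) h
    · intro c _ hc
      apply Finset.sum_eq_zero
      intro d _
      rw [Pi.single_eq_of_ne hc, zero_mul, zero_mul]
    · intro h; exact absurd (Finset.mem_univ _) h)
  have hle : Submodule.span F (Set.range fun x : Fin (k + 1) × Fin s =>
      (N ^ (x.1 : ℕ)) (φ (gen F k 0 (Pi.single x.2 1)) : V)) = U := by
    apply Submodule.eq_of_le_of_finrank_eq
    · rw [Submodule.span_le]
      rintro _ ⟨x, rfl⟩
      simp only
      rw [hNφp]
      exact (φ _).2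
    · rw [hblk.finrank_eq, hd]
  rw [hle] at hblk
  exact hblk

/-- Realisation of all types. -/
theorem exists_real (hB : Frm σ ε B) (hK : Kind σ ε B) {n : ℕ} (hn : n ≠ 0) {P : ℕ → ℕ → Prop}
    (hreal : ∀ s a, P s a → ∀ U : Submodule F V, Nd B U → finrank F U = s * a → ∃ N : Module.End F V, Skew B N ∧
      (∀ v ∈ hB.perp U, N v = 0) ∧ (∀ v, N v ∈ U) ∧ N ^ n = 0 ∧ Blk B N U s a)
    (hpar : σ = RingHom.id F → ∀ s a, P s a → Even (s * a)) (μ : Multiset (ℕ × ℕ)) (hμ : ∀ x ∈ μ, P x.1 x.2)
    (W : Submodule F V) (hW : Nd B W) (hd : finrank F W = (μ.map fun x => x.1 * x.2).sum) :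
    ∃ N : Module.End F V, Skew B N ∧ (∀ v ∈ hB.perp W, N v = 0) ∧ (∀ v, N v ∈ W) ∧ N ^ n = 0 ∧ JT B N W μ := by
  induction μ using Multiset.induction_on generalizing W with
  | empty =>
    have h0 : W = ⊥ := by
      rw [← Submodule.finrank_eq_zero (R := F)]
      simpa using hd
    subst h0
    refine ⟨0, fun u v => ?_, fun v _ => rfl, fun v => Submodule.zero_mem _, zero_pow hn, JT.zero⟩
    rw [LinearMap.zero_apply, LinearMap.zero_apply, hB.zero_left, hB.zero_right, neg_zero]
  | cons x μ ih =>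
    obtain ⟨s, a⟩ := x
    rw [Multiset.map_cons, Multiset.sum_cons] at hd
    simp only at hd
    have hPx : P s a := hμ (s, a) (Multiset.mem_cons_self _ _)
    obtain ⟨U, hUW, hU, hUd⟩ := exists_nd_sub hB hK hW (k := s * a) (by omega) (fun h => hpar h s a hPx)
    obtain ⟨N₁, h1, h2, h3, h4, h5⟩ := hreal s a hPx U hU hUd
    have h6 := hB.finrank_perp_inf hU hUW
    obtain ⟨N₂, k1, k2, k3, k4, k5⟩ := ih (fun y hy => hμ y (Multiset.mem_cons_of_mem hy)) (hB.perp U ⊓ W)
      (hB.nd_perp_inf hW hU hUW) (by omega)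
    have hU' : U ≤ hB.perp (hB.perp U ⊓ W) := hB.le_perp_iff.1 inf_le_left
    have e1 : N₁ * N₂ = 0 := LinearMap.ext fun v => h2 _ (k3 v).1
    have e2 : N₂ * N₁ = 0 := LinearMap.ext fun v => k2 _ (hU' (h3 v))
    refine ⟨N₁ + N₂, ?_, ?_, ?_, ?_, ?_⟩
    · intro u v
      rw [LinearMap.add_apply, LinearMap.add_apply, hB.add_left, hB.add_right, h1, k1]
      ring
    · intro v hv
      rw [LinearMap.add_apply, h2 v (hB.perp_anti hUW hv), k2 v (hB.perp_anti inf_le_right hv), add_zero]
    · intro v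
      exact W.add_mem (hUW (h3 v)) (k3 v).2
    · have hc : Commute N₁ N₂ := by rw [Commute, SemiconjBy, e1, e2]
      have e3 : ∀ t : ℕ, t ≠ 0 → (N₁ + N₂) ^ t = N₁ ^ t + N₂ ^ t := by
        intro t
        induction t with
        | zero => intro h; exact absurd rfl h
        | succ t iht =>
          intro _
          by_cases ht : t = 0
          · subst ht; simp
          · rw [pow_succ, iht ht, pow_succ, pow_succ]
            have e4 : N₁ ^ t * N₂ = 0 := by
              obtain ⟨r, rfl⟩ : ∃ r, t = r + 1 := ⟨t - 1, by omega⟩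
              rw [pow_succ, mul_assoc, e1, mul_zero]
            have e5 : N₂ ^ t * N₁ = 0 := by
              obtain ⟨r, rfl⟩ : ∃ r, t = r + 1 := ⟨t - 1, by omega⟩
              rw [pow_succ, mul_assoc, e2, mul_zero]
            rw [add_mul, mul_add, mul_add, e4, e5, add_zero, zero_add]
      rw [e3 n hn, h4, k4, add_zero]
    · have hc1 : Blk B (N₁ + N₂) U s a := h5.congr fun u hu => by
        rw [LinearMap.add_apply, k2 u (hU' hu), add_zero]
      have hc2 : JT B (N₁ + N₂) (hB.perp U ⊓ W) μ := k5.congr fun u hu => by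
        rw [LinearMap.add_apply, h2 u hu.1, zero_add]
      have := JT.cons hc1 hc2 fun u hu w hw => hB.eq_zero_comm.1 (hw.1 u hu)
      rwa [hB.sup_perp_inf hU hUW] at this

end Cfsg.Agent.H951
end

-- part: H951/UNe2
section
/-!
# Nondegenerate `m`-spaces of the unitary space: `r ≠ 2, p`, `i ≠ 2`
-/

set_option autoImplicit false
set_option linter.unusedSectionVars false
set_option linter.unusedVariables false

namespace Cfsg.Agent.H951

open Module Polynomial Cfsg

variable {F : Type*} [Field F] [Fintype F] {q n r : ℕ}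

lemma ord_pos_of_sq [Fact r.Prime] (hF : Fintype.card F = q ^ 2) (hr : (r : F) ≠ 0) {i : ℕ}
    (hi : i = orderOf (q : ZMod r)) : 0 < i := by
  have h := ord_pos (F := F) hr
  rw [hF] at h
  push_cast at h
  rw [hi, orderOf_pos_iff, isOfFinOrder_iff_pow_eq_one]
  rw [orderOf_pos_iff, isOfFinOrder_iff_pow_eq_one] at h
  obtain ⟨k, hk, h⟩ := h
  exact ⟨2 * k, by omega, by rw [pow_mul]; exact h⟩

lemma coprime_of_ne_two [Fact r.Prime] (hr2 : r ≠ 2) {i : ℕ} (hi : i = orderOf (q : ZMod r)) (hi2 : i ≠ 2) :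
    Nat.Coprime r (q + 1) := by
  have hrP : r.Prime := Fact.out
  rw [hrP.coprime_iff_not_dvd]
  intro h
  rw [← ZMod.natCast_eq_zero_iff] at h
  push_cast at h
  apply hi2
  have h1 : (q : ZMod r) = -1 := by linear_combination h
  rw [hi, h1]
  refine orderOf_eq_prime (p := 2) (by ring) ?_
  intro h2
  have h3 : ((2 : ℕ) : ZMod r) = 0 := by push_cast; linear_combination -h2
  rw [ZMod.natCast_eq_zero_iff] at h3
  exact hr2 ((Nat.prime_dvd_prime_iff_eq hrP Nat.prime_two).1 h3)

lemma toLin'_scalar {ι : Type*} [Fintype ι] [DecidableEq ι] {x : Matrix ι ι F} {z : F} {k : ℕ}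
    (h : x ^ k = z • (1 : Matrix ι ι F)) : (Matrix.toLin' x) ^ k = z • 1 := by
  rw [pow_toLin', h, map_smul, Matrix.toLin'_one]
  rfl

lemma scalar_of_toLin' {ι : Type*} [Fintype ι] [DecidableEq ι] {x : Matrix ι ι F} {z : F}
    (h : Matrix.toLin' x = z • 1) : x = z • (1 : Matrix ι ι F) := by
  apply Matrix.toLin'.injective
  rw [h, map_smul, Matrix.toLin'_one]
  rfl

theorem nd_unitary_ne2 {p : ℕ} [Fact p.Prime] [CharP F p] (hF : Fintype.card F = q ^ 2) (m : ℕ) (hn : 3 ≤ n)
    (hm : 1 ≤ m) (hmn : 2 * m < n) [Fact r.Prime] (hr2 : r ≠ 2) (hr : (r : F) ≠ 0)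
    (hΩ : r ∣ Nat.card {W : Submodule F (Fin n → F) // finrank F ↥W = m ∧ Nd (hermForm n F q) W}) {i c : ℕ}
    (hi : i = orderOf (q : ZMod r))
    (hc : c = if i % 4 = 0 then i else if i % 4 = 2 then i / 2 else 2 * i) (hi2 : i ≠ 2) :
    (∀ x : Matrix.SpecialLinearGroup (Fin n) F, x ∈ Cfsg.SU n F q →
      (∃ z : F, ((x ^ r : Matrix.SpecialLinearGroup (Fin n) F) : Matrix (Fin n) (Fin n) F) = z • (1 : Matrix (Fin n) (Fin n) F)) →
      (∀ z : F, (x : Matrix (Fin n) (Fin n) F) ≠ z • (1 : Matrix (Fin n) (Fin n) F)) →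
      ∃ W : Submodule F (Fin n → F), finrank F ↥W = m ∧ Nd (hermForm n F q) W ∧
        W.map (Matrix.toLin' (x : Matrix (Fin n) (Fin n) F)) ≤ W) ↔ (c ≤ m ∧ m % c ≤ n % c) := by
  have hq := ClassicalGeometry.GUBasic.two_le hF
  have hi0 := ord_pos_of_sq hF hr hi
  have hc0 : 0 < c := by rw [hc]; split_ifs <;> omega
  obtain ⟨σ, hσ, hσ2, hne⟩ := exists_sig hF
  have hB := frm_herm hσ hσ2 n
  have hK : Kind σ 1 (hermForm n F q) := kind_herm hne n
  have hV : Nd (hermForm n F q) (⊤ : Submodule F (Fin n → F)) := nd_herm (by omega)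
  have hco := coprime_of_ne_two hr2 hi hi2
  have hbn := blockNum_unitary hr2 hσ hσ2 (p := p) hF hi hi0 hc
  have hfr : finrank F (Fin n → F) = n := by simp
  have hr0 : r ≠ 0 := (Fact.out : r.Prime).ne_zero
  have hdiv : ∀ y : Module.End F (Fin n → F), Isom (hermForm n F q) y → y ^ r = 1 → ∀ W' : Submodule F (Fin n → F),
      Inv y W' → Nd (hermForm n F q) W' → W' ≤ cm y → c ∣ finrank F W' := fun y hy hyr W' h1 h2 h3 =>
    dvd_finrank_unitary hr2 hr hF hσ hne hB hi hi0 hc hy hyr W' h1 h2 h3
  obtain ⟨hcn, hmod⟩ := mod_lt_of_dvd hF (m := m) (by omega) hr2 hi hi0 hc hΩ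
  constructor
  · intro h
    obtain ⟨y, hy, hyr, hyd⟩ := exists_elt_unitary hr2 hr hF hσ hne hB hV hi hi0 hc (M := n / c)
      (by rw [hfr]; exact Nat.mul_div_le n c)
    obtain ⟨x, hx, hxy⟩ := exists_SU hy (det_eq_one_of_coprime hF hy hyr hco)
    have hM : (x : Matrix (Fin n) (Fin n) F) ^ r = 1 := by
      apply Matrix.toLin'.injective
      rw [← pow_toLin', hxy, hyr, Matrix.toLin'_one]
      rfl
    obtain ⟨W, hWm, hW, hWx⟩ := h x hx ⟨1, by
      rw [one_smul, Matrix.SpecialLinearGroup.coe_pow, hM]⟩ (by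
      intro z hz
      have h1 : y = z • 1 := by
        rw [← hxy, hz, map_smul, Matrix.toLin'_one]; rfl
      -- then cm y = ⊥ or ⊤, fixed vectors
      have h2 : z ^ r = 1 ∧ z ^ (q + 1) = 1 := by
        have hne0 : ∃ v : Fin n → F, v ≠ 0 := ⟨Pi.single ⟨0, by omega⟩ 1, by
          intro h
          have := congrFun h ⟨0, by omega⟩
          simp at this⟩
        constructor
        · obtain ⟨v, hv⟩ := hne0
          have h3 : (y ^ r) v = z ^ r • v := by
            rw [h1, smul_pow_end, one_pow]; rfl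
          rw [hyr] at h3
          change v = z ^ r • v at h3
          have h4 : (z ^ r - 1) • v = 0 := by rw [sub_smul, ← h3, one_smul, sub_self]
          rcases smul_eq_zero.1 h4 with h | h
          · linear_combination h
          · exact absurd h hv
        · exact norm_of_scalar hσ hB hV hne0 (T := y) (r := 1) hy (by rw [pow_one, h1])
      have h3 : orderOf z ∣ Nat.gcd r (q + 1) :=
        Nat.dvd_gcd (orderOf_dvd_of_pow_eq_one h2.1) (orderOf_dvd_of_pow_eq_one h2.2)
      rw [hco, Nat.dvd_one, orderOf_eq_one_iff] at h3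
      have h4 : cm y = ⊥ := by
        rw [eq_bot_iff]
        intro v hv
        obtain ⟨w, rfl⟩ := mem_cm.1 hv
        rw [h1, h3]
        simp
      rw [h4, finrank_bot] at hyd
      have h5 : 1 ≤ n / c := (Nat.one_le_div_iff hc0).2 hcn
      have : c * 1 ≤ c * (n / c) := Nat.mul_le_mul_left _ h5
      omega)
    have hWi : Inv y W := by rw [inv_iff_map, ← hxy]; exact hWx
    have := le_of_inv_nd hB hV hc0 hr hy hyr (hdiv y hy hyr) (by rw [hfr]; exact hyd) (by rw [hfr]; exact hmod)
      hWi hW hWm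
    rwa [hfr] at this
  · rintro ⟨hcm, hmc⟩ x hx ⟨z, hz⟩ hns
    set T := Matrix.toLin' (x : Matrix (Fin n) (Fin n) F) with hT
    have hTi : Isom (hermForm n F q) T := isom_SU hx
    have hTr : T ^ r = z • 1 := toLin'_scalar (by rw [← Matrix.SpecialLinearGroup.coe_pow]; exact hz)
    have hne0 : ∃ v : Fin n → F, v ≠ 0 := ⟨Pi.single ⟨0, by omega⟩ 1, by
      intro h
      have := congrFun h ⟨0, by omega⟩
      simp at this⟩
    have hz1 := norm_of_scalar hσ hB hV hne0 hTi hTr
    obtain ⟨w, hw1, hw2⟩ := exists_root_of_coprime hz1 hco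
    have hw0 : w ≠ 0 := by
      rintro rfl
      rw [zero_pow (by omega)] at hw1
      exact zero_ne_one hw1
    have hwi : w⁻¹ ^ (q + 1) = 1 := by rw [inv_pow, hw1, inv_one]
    have hy := isom_smul hσ hB hTi hwi
    have hyr : (w⁻¹ • T) ^ r = 1 := by
      rw [smul_pow_end, hTr, smul_smul, ← hw2, ← mul_pow, inv_mul_cancel₀ hw0, one_pow, one_smul]
    obtain ⟨W, hWi, hW, hWm⟩ := exists_inv_nd hr hr2 hB hK hV hy hyr (hdiv _ hy hyr) hbn (m := m)
      (by rw [hfr]; omega) (fun h => absurd h hne) (by rw [hfr]; exact hmc)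
    refine ⟨W, hWm, hW, ?_⟩
    rw [← inv_iff_map]
    exact (inv_smul_iff (inv_ne_zero hw0)).1 hWi

end Cfsg.Agent.H951
end

-- part: H951/UEq2
section
/-!
# Nondegenerate `m`-spaces of the unitary space: `r` odd dividing `q + 1` (`i = 2`)
-/

set_option autoImplicit false
set_option linter.unusedSectionVars false
set_option linter.unusedVariables false

namespace Cfsg.Agent.H951

open Module Polynomial Cfsg

section roots

variable {F : Type*} [Field F] [Fintype F]

lemma exists_root_of_pow {z : F} {g r : ℕ} (hg : 0 < g) (hz : z ^ g = 1) (hd : r * g ∣ Fintype.card F - 1) :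
    ∃ w : F, w ^ r = z := by
  have hz0 : z ≠ 0 := by rintro rfl; rw [zero_pow hg.ne'] at hz; exact zero_ne_one hz
  obtain ⟨γ, hγ⟩ := IsCyclic.exists_generator (α := Fˣ)
  have hN : orderOf γ = Fintype.card F - 1 := by
    rw [orderOf_eq_card_of_forall_mem_zpowers hγ, Nat.card_units, Nat.card_eq_fintype_card]
  obtain ⟨e, he⟩ : ∃ e : ℕ, γ ^ e = Units.mk0 z hz0 := by
    have := hγ (Units.mk0 z hz0)
    rw [← mem_powers_iff_mem_zpowers] at this
    exact this
  have h1 : γ ^ (e * g) = 1 := by
    rw [pow_mul, he]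
    ext
    rw [Units.val_pow_eq_pow_val]
    exact hz
  rw [← orderOf_dvd_iff_pow_eq_one, hN] at h1
  have h2 : r * g ∣ e * g := hd.trans h1
  obtain ⟨s, hs⟩ := Nat.dvd_of_mul_dvd_mul_right hg h2
  refine ⟨((γ ^ s : Fˣ) : F), ?_⟩
  rw [← Units.val_pow_eq_pow_val, ← pow_mul, mul_comm, ← hs, he]
  rfl

lemma exists_of_order {d : ℕ} (hd : d ∣ Fintype.card F - 1) : ∃ z : F, orderOf z = d := by
  obtain ⟨γ, hγ⟩ := IsCyclic.exists_generator (α := Fˣ)
  have hN : orderOf γ = Fintype.card F - 1 := by
    rw [orderOf_eq_card_of_forall_mem_zpowers hγ, Nat.card_units, Nat.card_eq_fintype_card]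
  refine ⟨((γ ^ (orderOf γ / d) : Fˣ) : F), ?_⟩
  rw [orderOf_units, orderOf_pow_orderOf_div (orderOf_pos γ).ne' (by rw [hN]; exact hd)]

end roots

variable {F : Type*} [Field F] [Fintype F] {q n r : ℕ}

lemma succ_dvd_card_sub (hF : Fintype.card F = q ^ 2) : Fintype.card F - 1 = (q + 1) * (q - 1) := by
  rw [hF]
  have hq := ClassicalGeometry.GUBasic.two_le hF
  obtain ⟨s, rfl⟩ : ∃ s, q = s + 1 := ⟨q - 1, by omega⟩
  simp only [Nat.add_sub_cancel]
  rw [Nat.sub_eq_iff_eq_add (Nat.one_le_pow _ _ (by omega))]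
  ring

/-- Roots of norm-one elements have norm one, `r` odd dividing `q + 1`. -/
lemma norm_of_root [Fact r.Prime] (hr2 : r ≠ 2) (hF : Fintype.card F = q ^ 2) (hrq : r ∣ q + 1) {z w : F}
    (hz : z ^ (q + 1) = 1) (hw : w ^ r = z) : w ^ (q + 1) = 1 := by
  have hrP : r.Prime := Fact.out
  have hq := ClassicalGeometry.GUBasic.two_le hF
  have hw0 : w ≠ 0 := by
    rintro rfl
    rw [zero_pow hrP.ne_zero] at hw
    rw [← hw, zero_pow (by omega)] at hz
    exact zero_ne_one hz
  have h1 : (w ^ (q + 1)) ^ (q - 1) = 1 := by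
    rw [← pow_mul, ← succ_dvd_card_sub hF]
    exact FiniteField.pow_card_sub_one_eq_one w hw0
  have h2 : (w ^ (q + 1)) ^ r = 1 := by
    rw [← pow_mul, mul_comm, pow_mul, hw, hz]
  have hco : Nat.Coprime r (q - 1) := by
    rw [hrP.coprime_iff_not_dvd]
    intro h
    have h3 : r ∣ (q + 1) - (q - 1) := Nat.dvd_sub hrq h
    have h4 : (q + 1) - (q - 1) = 2 := by omega
    rw [h4] at h3
    exact hr2 ((Nat.prime_dvd_prime_iff_eq hrP Nat.prime_two).1 h3)
  have h3 : orderOf (w ^ (q + 1)) ∣ Nat.gcd r (q - 1) :=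
    Nat.dvd_gcd (orderOf_dvd_of_pow_eq_one h2) (orderOf_dvd_of_pow_eq_one h1)
  rw [hco, Nat.dvd_one, orderOf_eq_one_iff] at h3
  exact h3

/-- Nondegenerate invariant subspaces of every dimension `r j` when `T^r = z` is not an `r`-th power. -/
theorem exists_nd_of_nonroot {V : Type*} [AddCommGroup V] [Module F V] [FiniteDimensional F V] {σ : F →+* F}
    {ε : F} {B : V → V → F} [Fact r.Prime] (hr2 : r ≠ 2) (hB : Frm σ ε B) (hV : Nd B (⊤ : Submodule F V)) {T : Module.End F V}
    (hT : Isom B T) {z : F} (hz0 : z ≠ 0) (hTr : T ^ r = z • 1) (hz : ∀ b : F, b ^ r ≠ z) {j : ℕ} (hj : r * j ≤ finrank F V) : ∃ W : Submodule F V, Inv T W ∧ Nd B W ∧ finrank F W = r * j := by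
  have hrP : r.Prime := Fact.out
  have hirr : Irreducible (X ^ r - C z : F[X]) := X_pow_sub_C_irreducible_of_prime hrP hz
  have haev : aeval T (X ^ r - C z : F[X]) = 0 := by
    rw [map_sub, map_pow, aeval_X, aeval_C, hTr, sub_eq_zero]
    rfl
  have hss : T.IsSemisimple := Module.End.isSemisimple_of_squarefree_aeval_eq_zero hirr.squarefree haev
  have hinj : Function.Injective T := by
    obtain ⟨s, hs⟩ : ∃ s, r = s + 1 := ⟨r - 1, by have := hrP.pos; omega⟩
    have h : ∀ w : V, (T ^ s) (T w) = z • w := by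
      intro w
      rw [← Module.End.mul_apply, ← pow_succ, ← hs, hTr]
      rfl
    intro u v huv
    have h1 : z • u = z • v := by rw [← h u, ← h v, huv]
    exact smul_right_injective V hz0 h1
  have hkil : ∀ v : V, aeval T (X ^ r - C z : F[X]) v = 0 := fun v => by rw [haev]; rfl
  have step : ∀ W, Inv T W → Nd B W → W ≠ ⊥ → ∃ W' ≤ W, Inv T W' ∧ Nd B W' ∧ finrank F W' = r := by
    intro W hW hWn h0
    rcases exists_block hB hT hinj hss hW hWn h0 with ⟨U, hUW, hU, hUn⟩ |
      ⟨U, U', hUW, hU'W, hU, hU', hti, hti', hdis, hp, hnd⟩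
    · exact ⟨U, hUW, hU.2.1, hUn, by
        rw [hU.finrank_eq_natDegree hirr fun v _ => hkil v, natDegree_X_pow_sub_C]⟩
    · have h2 : ∃ u ∈ U', T (T u) ≠ u := by
        by_contra hno
        push Not at hno
        obtain ⟨v, hv, hv0⟩ := (Submodule.ne_bot_iff _).1 hU'.1
        obtain ⟨k, hk⟩ := hrP.odd_of_ne_two hr2
        have h3 : ∀ j : ℕ, ∀ w ∈ U', (T ^ (2 * j)) w = w := by
          intro j
          induction j with
          | zero => intro w _; simp
          | succ j ih =>
            intro w hw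
            rw [mul_add, mul_one, pow_add, Module.End.mul_apply, pow_two, Module.End.mul_apply, hno w hw, ih w hw]
        have h4 : ∀ w ∈ U', T w = z • w := by
          intro w hw
          have h5 : (T ^ r) w = z • w := by rw [hTr]; rfl
          rw [hk, pow_add, pow_one, Module.End.mul_apply, h3 k _ (hU'.2.1 w hw)] at h5
          exact h5
        have h5 : z • z • v = v := by
          have := hno v hv
          rwa [h4 v hv, map_smul, h4 v hv] at this
        have h6 : z ^ 2 = 1 := by
          have h7 : (z ^ 2 - 1) • v = 0 := by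
            rw [sub_smul, pow_two, mul_smul, h5, one_smul, sub_self]
          rcases smul_eq_zero.1 h7 with h | h
          · linear_combination h
          · exact absurd h hv0
        apply hz z
        rw [hk, pow_add, pow_mul, h6, one_pow, one_mul, pow_one]
      obtain ⟨S, hS, hSi, hSn⟩ := exists_nd_irr hB hT hinj hirr hU hU' (fun u _ => hkil u) (fun u _ => hkil u)
        hti hti' hp h2
      exact ⟨S, hS.trans (sup_le hUW hU'W), hSi.2.1, hSn, by
        rw [hSi.finrank_eq_natDegree hirr fun v _ => hkil v, natDegree_X_pow_sub_C]⟩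
  obtain ⟨W, -, h1, h2, h3⟩ := exists_nd_of_step (x := T) hB
    (fun W hW => hT.inv_perp hB hinj hW) hrP.pos step (W := ⊤) (fun _ _ => trivial) hV (j := j)
    (by rw [finrank_top]; exact hj)
  exact ⟨W, h1, h2, h3⟩

end Cfsg.Agent.H951
end

-- part: H951/UStat
section
/-!
# The statement about `SU_n(q)` in terms of linear maps; the cases `i = 2` and `r = 2`
-/

set_option autoImplicit false
set_option linter.unusedSectionVars false
set_option linter.unusedVariables false

namespace Cfsg.Agent.H951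

open Module Polynomial Cfsg

variable {F : Type*} [Field F] [Fintype F] {q n m r : ℕ}

/-- Every element of order `r` of `PSU_n(q)` fixes a nondegenerate `m`-space. -/
def UStat (F : Type*) [Field F] (n q m r : ℕ) : Prop :=
  ∀ x : Matrix.SpecialLinearGroup (Fin n) F, x ∈ Cfsg.SU n F q →
      (∃ z : F, ((x ^ r : Matrix.SpecialLinearGroup (Fin n) F) : Matrix (Fin n) (Fin n) F) = z • (1 : Matrix (Fin n) (Fin n) F)) →
      (∀ z : F, (x : Matrix (Fin n) (Fin n) F) ≠ z • (1 : Matrix (Fin n) (Fin n) F)) →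
      ∃ W : Submodule F (Fin n → F), finrank F ↥W = m ∧ Nd (hermForm n F q) W ∧
        W.map (Matrix.toLin' (x : Matrix (Fin n) (Fin n) F)) ≤ W

lemma toLin'_smul_one (z : F) : Matrix.toLin' (z • (1 : Matrix (Fin n) (Fin n) F)) = z • 1 := by
  rw [map_smul, Matrix.toLin'_one]; rfl

theorem ustat_iff : UStat F n q m r ↔ ∀ T : Module.End F (Fin n → F), Isom (hermForm n F q) T → LinearMap.det T = 1 →
    (∃ z : F, T ^ r = z • 1) → (∀ z : F, T ≠ z • 1) →
    ∃ W : Submodule F (Fin n → F), Inv T W ∧ Nd (hermForm n F q) W ∧ finrank F ↥W = m := by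
  constructor
  · rintro h T hT hd ⟨z, hz⟩ hns
    obtain ⟨x, hx, rfl⟩ := exists_SU hT hd
    obtain ⟨W, h1, h2, h3⟩ := h x hx ⟨z, by
      apply Matrix.toLin'.injective
      rw [toLin'_smul_one, Matrix.SpecialLinearGroup.coe_pow, ← pow_toLin', hz]⟩ (fun z hz => hns z (by
        rw [hz, toLin'_smul_one]))
    exact ⟨W, inv_iff_map.2 h3, h2, h1⟩
  · rintro h x hx ⟨z, hz⟩ hns
    have hd : LinearMap.det (Matrix.toLin' (x : Matrix (Fin n) (Fin n) F)) = 1 := by
      rw [LinearMap.det_toLin', x.2]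
    obtain ⟨W, h1, h2, h3⟩ := h _ (isom_SU hx) hd ⟨z, by
      rw [pow_toLin', ← Matrix.SpecialLinearGroup.coe_pow, hz, toLin'_smul_one]⟩ (fun z hz => hns z (by
        apply Matrix.toLin'.injective
        rw [hz, toLin'_smul_one]))
    exact ⟨W, h3, h2, inv_iff_map.1 h1⟩

lemma exists_ne_zero (hn : 0 < n) : ∃ v : Fin n → F, v ≠ 0 := ⟨Pi.single ⟨0, hn⟩ 1, by
  intro h
  have := congrFun h ⟨0, hn⟩
  simp at this⟩

/-- The case `r ∣ q + 1`, `r` odd. -/
theorem ustat_eq2 {p : ℕ} [Fact p.Prime] [CharP F p] (hF : Fintype.card F = q ^ 2) (hn : 3 ≤ n)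
    (hm : 1 ≤ m) (hmn : 2 * m < n) [Fact r.Prime] (hr2 : r ≠ 2) (hr : (r : F) ≠ 0) {i c : ℕ}
    (hi : i = orderOf (q : ZMod r))
    (hc : c = if i % 4 = 0 then i else if i % 4 = 2 then i / 2 else 2 * i) (hi2 : i = 2) :
    UStat F n q m r ↔ (r ∣ m ∨ padicValNat r n ≤ padicValNat r (q + 1)) := by
  have hrP : r.Prime := Fact.out
  have hq := ClassicalGeometry.GUBasic.two_le hF
  obtain ⟨σ, hσ, hσ2, hne⟩ := exists_sig hF
  have hc1 : c = 1 := by rw [hc, hi2]; rfl
  have hrq : r ∣ q + 1 := by
    have := (dvd_iff_c (q := q) hr2 (by omega) hi (by omega) hc (k := 1) one_pos).2 (by rw [hc1])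
    simpa using this
  have hcard := succ_dvd_card_sub hF
  rw [ustat_iff]
  constructor
  · intro h
    by_contra hno
    push Not at hno
    obtain ⟨hrm, hlt⟩ := hno
    set a := padicValNat r (q + 1) with ha
    -- r^(a+1) ∣ n
    have h1 : r ^ (a + 1) ∣ n := (pow_dvd_pow r hlt).trans pow_padicValNat_dvd
    obtain ⟨k₀, hk₀⟩ := h1
    have hn' : n = (r ^ a * k₀) * r := by rw [hk₀]; ring
    set k := r ^ a * k₀ with hk
    have haq : r ^ a ∣ q + 1 := pow_padicValNat_dvd
    obtain ⟨z, hz⟩ := exists_of_order (F := F) (d := r ^ a) (by rw [hcard]; exact haq.mul_right _)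
    have hz1 : z ^ (q + 1) = 1 := by rw [← orderOf_dvd_iff_pow_eq_one, hz]; exact haq
    have hzk : z ^ k = 1 := by rw [← orderOf_dvd_iff_pow_eq_one, hz]; exact Dvd.intro _ rfl
    have ha0 : 1 ≤ a := by
      rw [ha]
      exact one_le_padicValNat_of_dvd (by omega) hrq
    have hnr : ∀ b : F, b ^ r ≠ z := by
      intro b hb
      have hb1 := norm_of_root hr2 hF hrq hz1 hb
      have h2 : orderOf b ∣ q + 1 := orderOf_dvd_of_pow_eq_one hb1
      have h3 : r ^ (a + 1) ∣ orderOf b := by
        have h4 : orderOf b ∣ r ^ (a + 1) := by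
          rw [orderOf_dvd_iff_pow_eq_one, pow_succ', pow_mul, hb, ← orderOf_dvd_iff_pow_eq_one, hz]
        obtain ⟨t, ht, hbt⟩ := (Nat.dvd_prime_pow hrP).1 h4
        have h5 : ¬ t ≤ a := by
          intro hta
          have h6 : b ^ (r ^ a) = 1 := by
            rw [← orderOf_dvd_iff_pow_eq_one, hbt]; exact pow_dvd_pow r hta
          have h7 : z ^ (r ^ (a - 1)) = 1 := by
            rw [← hb, ← pow_mul, ← pow_succ', Nat.sub_add_cancel ha0, h6]
          rw [← orderOf_dvd_iff_pow_eq_one, hz] at h7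
          have := (Nat.pow_dvd_pow_iff_le_right hrP.one_lt).1 h7
          omega
        rw [hbt]
        exact pow_dvd_pow r (by omega)
      have h8 : r ^ (a + 1) ∣ q + 1 := h3.trans h2
      exact pow_succ_padicValNat_not_dvd (by omega) h8
    clear_value k
    subst hn'
    obtain ⟨T, hT, hTr, hTd⟩ := exists_monomial (F := F) hz1 hrP.pos k
    have he : Even (r - 1) := by
      obtain ⟨s, hs⟩ := hrP.odd_of_ne_two hr2
      exact ⟨s, by omega⟩
    rw [he.neg_one_pow, one_mul, hzk] at hTd
    obtain ⟨W, hW, -, hWm⟩ := h T hT hTd ⟨z, hTr⟩ (by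
      intro w hw
      apply hnr w
      obtain ⟨v, hv⟩ := exists_ne_zero (F := F) (n := k * r) (by omega)
      have h2 : (T ^ r) v = w ^ r • v := by rw [hw, smul_pow_end, one_pow]; rfl
      rw [hTr] at h2
      change z • v = w ^ r • v at h2
      have h3 : (w ^ r - z) • v = 0 := by rw [sub_smul, ← h2, sub_self]
      rcases smul_eq_zero.1 h3 with h | h
      · linear_combination h
      · exact absurd h hv)
    apply hrm
    rw [← hWm]
    exact dvd_finrank_of_pow_eq hrP hnr hTr hW
  · intro h T hT hTd hTz hns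
    obtain ⟨z, hTr⟩ := hTz
    have hB := frm_herm hσ hσ2 n
    have hV : Nd (hermForm n F q) (⊤ : Submodule F (Fin n → F)) := nd_herm (by omega)
    have hfr : finrank F (Fin n → F) = n := by simp
    have hz1 := norm_of_scalar hσ hB hV (exists_ne_zero (by omega)) hT hTr
    have hz0 : z ≠ 0 := by rintro rfl; rw [zero_pow (by omega)] at hz1; exact zero_ne_one hz1
    by_cases hzr : ∃ w : F, w ^ r = z
    · obtain ⟨w, hw⟩ := hzr
      have hw1 := norm_of_root hr2 hF hrq hz1 hw
      have hw0 : w ≠ 0 := by rintro rfl; rw [zero_pow (by omega)] at hw1; exact zero_ne_one hw1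
      have hwi : w⁻¹ ^ (q + 1) = 1 := by rw [inv_pow, hw1, inv_one]
      have hy := isom_smul hσ hB hT hwi
      have hyr : (w⁻¹ • T) ^ r = 1 := by
        rw [smul_pow_end, hTr, smul_smul, ← hw, ← mul_pow, inv_mul_cancel₀ hw0, one_pow, one_smul]
      obtain ⟨W, hWi, hW, hWm⟩ := exists_inv_nd hr hr2 hB (kind_herm hne n) hV hy hyr (c := c)
        (fun _ _ _ _ => by rw [hc1]; exact one_dvd _)
        (blockNum_unitary hr2 hσ hσ2 (p := p) hF hi (by omega) hc) (m := m)
        (by rw [hfr]; omega) (fun h => absurd h hne) (by rw [hc1, Nat.mod_one, Nat.mod_one])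
      exact ⟨W, (inv_smul_iff (inv_ne_zero hw0)).1 hWi, hW, hWm⟩
    · push Not at hzr
      rcases h with ⟨j, hj⟩ | h
      · obtain ⟨W, hWi, hW, hWm⟩ := exists_nd_of_nonroot hr2 hB hV hT hz0 hTr hzr (j := j) (by rw [hfr]; omega)
        exact ⟨W, hWi, hW, by rw [hWm, hj]⟩
      · exfalso
        obtain ⟨k, hk, hkd⟩ := det_of_pow_eq hrP hzr hTr
        rw [hfr] at hk
        obtain ⟨s, hs⟩ := hrP.odd_of_ne_two hr2
        have hzk : z ^ k = 1 := by
          rw [hTd, hs, Nat.add_sub_cancel, pow_mul, neg_one_sq, one_pow, one_mul] at hkd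
          exact hkd.symm
        have hk0 : 0 < k := by
          rw [Nat.pos_iff_ne_zero]; rintro rfl; omega
        set g := Nat.gcd k (q + 1) with hg
        have hg0 : 0 < g := Nat.gcd_pos_of_pos_left _ hk0
        have hzg : z ^ g = 1 := by
          rw [← orderOf_dvd_iff_pow_eq_one]
          exact Nat.dvd_gcd (orderOf_dvd_of_pow_eq_one hzk) (orderOf_dvd_of_pow_eq_one hz1)
        have h1 : r * g ∣ q + 1 := by
          -- compare valuations
          obtain ⟨t, ht⟩ : g ∣ q + 1 := Nat.gcd_dvd_right _ _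
          have hrt : r ∣ t := by
            by_contra hrt
            have ht0 : t ≠ 0 := by rintro rfl; omega
            have h2 : padicValNat r (q + 1) = padicValNat r g := by
              rw [ht, padicValNat.mul hg0.ne' ht0, padicValNat.eq_zero_of_not_dvd hrt, add_zero]
            have h3 : padicValNat r g ≤ padicValNat r k := by
              exact padicValNat_dvd_iff_le (p := r) hk0.ne' |>.1 (pow_padicValNat_dvd.trans (Nat.gcd_dvd_left _ _))
            have h4 : padicValNat r n = padicValNat r k + 1 := by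
              rw [hk, padicValNat.mul hrP.ne_zero hk0.ne', padicValNat_self, add_comm]
            omega
          obtain ⟨t', rfl⟩ := hrt
          exact ⟨t', by rw [ht]; ring⟩
        obtain ⟨w, hw⟩ := exists_root_of_pow hg0 hzg (r := r) (by rw [hcard]; exact h1.mul_right _)
        exact hzr w hw

end Cfsg.Agent.H951
end

-- part: H951/UTwo
section
/-!
# Involutions of `PSU_n(q)`, `q` odd, on nondegenerate `m`-spaces
-/

set_option autoImplicit false
set_option linter.unusedSectionVars false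
set_option linter.unusedVariables false

namespace Cfsg.Agent.H951

open Module Polynomial Cfsg

variable {F : Type*} [Field F] [Fintype F] {q n m r : ℕ}

/-- `T² = w²` with `w^{q+1} = -1`: `w⁻¹ T` is an anti-isometric involution. -/
lemma anti_of_sq {σ : F →+* F} (hσ : ∀ a, σ a = a ^ q) {V : Type*} [AddCommGroup V] [Module F V] {B : V → V → F}
    (hB : Frm σ 1 B) {T : Module.End F V} (hT : Isom B T) {w : F} (hw : w ^ (q + 1) = -1)
    (hT2 : T ^ 2 = w ^ 2 • 1) : (w⁻¹ • T) ^ 2 = 1 ∧ ∀ u v, B ((w⁻¹ • T) u) ((w⁻¹ • T) v) = -1 * B u v := by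
  have hw0 : w ≠ 0 := by
    rintro rfl
    rw [zero_pow (Nat.succ_ne_zero _)] at hw
    have : (1 : F) = 0 := by linear_combination hw
    exact one_ne_zero this
  constructor
  · rw [smul_pow_end, hT2, smul_smul, ← mul_pow, inv_mul_cancel₀ hw0, one_pow, one_smul]
  · intro u v
    rw [LinearMap.smul_apply, LinearMap.smul_apply, hB.smul_left, hB.smul_right, hT, hσ]
    have h1 : w⁻¹ ^ (q + 1) = -1 := by rw [inv_pow, hw]; norm_num
    rw [pow_succ'] at h1
    linear_combination (B u v) * h1

lemma sq_of_norm (hF : Fintype.card F = q ^ 2) (h2 : (2 : F) ≠ 0) {z : F} (hz : z ^ (q + 1) = 1) :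
    ∃ w : F, w ^ 2 = z := by
  have hq := ClassicalGeometry.GUBasic.two_le hF
  have hz0 : z ≠ 0 := by rintro rfl; rw [zero_pow (by omega)] at hz; exact zero_ne_one hz
  have hqo : q % 2 = 1 := by
    by_contra hqe
    apply h2
    have h3 : ((Fintype.card F : ℕ) : F) = 0 := Nat.cast_card_eq_zero F
    obtain ⟨p, hp⟩ := CharP.exists F
    obtain ⟨k, hpp, hk⟩ := FiniteField.card F p
    have h4 : 2 ∣ p ^ (k : ℕ) := by rw [← hk, hF]; exact dvd_pow (by omega) two_ne_zero
    have h5 := (Nat.prime_dvd_prime_iff_eq Nat.prime_two hpp).1 (Nat.prime_two.dvd_of_dvd_pow h4)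
    have h6 : ((p : ℕ) : F) = 0 := CharP.cast_eq_zero F p
    rw [← h5] at h6
    exact_mod_cast h6
  refine exists_root_of_pow (by omega : 0 < q + 1) hz (r := 2) ?_
  rw [succ_dvd_card_sub hF, mul_comm]
  exact Nat.mul_dvd_mul_left _ (by omega)

lemma odd_q_of_two (hF : Fintype.card F = q ^ 2) (h2 : (2 : F) ≠ 0) : q % 2 = 1 := by
  by_contra hqe
  apply h2
  obtain ⟨p, hp⟩ := CharP.exists F
  obtain ⟨k, hpp, hk⟩ := FiniteField.card F p
  have h4 : 2 ∣ p ^ (k : ℕ) := by rw [← hk, hF]; exact dvd_pow (by omega) two_ne_zero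
  have h5 := (Nat.prime_dvd_prime_iff_eq Nat.prime_two hpp).1 (Nat.prime_two.dvd_of_dvd_pow h4)
  have h6 : ((p : ℕ) : F) = 0 := CharP.cast_eq_zero F p
  rw [← h5] at h6
  exact_mod_cast h6

theorem ustat_two (hF : Fintype.card F = q ^ 2) (h2 : (2 : F) ≠ 0) (hn : 3 ≤ n)
    (hm : 1 ≤ m) (hmn : 2 * m < n) :
    UStat F n q m 2 ↔ (Odd n ∨ Even m ∨ (padicValNat 2 n ≤ padicValNat 2 (q + 1) ∧ q % 4 = 3)) := by
  have hq := ClassicalGeometry.GUBasic.two_le hF
  obtain ⟨σ, hσ, hσ2, hne⟩ := exists_sig hF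
  have hqo := odd_q_of_two hF h2
  have hcard := succ_dvd_card_sub hF
  have hm1 : (-1 : F) ≠ 1 := by
    intro h; apply h2; linear_combination -h
  rw [ustat_iff]
  constructor
  · intro h
    by_contra hno
    push Not at hno
    obtain ⟨hno1, hno2, hno3⟩ := hno
    rw [Nat.not_odd_iff_even] at hno1
    obtain ⟨k, hk⟩ := hno1
    obtain rfl : n = k * 2 := by omega
    -- the scalar
    obtain ⟨w, hw1, hw2⟩ : ∃ w : F, w ^ (q + 1) = -1 ∧ (-(w ^ 2)) ^ k = 1 := by
      by_cases hq4 : q % 4 = 3
      · have hlt : padicValNat 2 (q + 1) < padicValNat 2 (k * 2) := by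
          by_contra h; exact hno3 (by omega) hq4
        set a := padicValNat 2 (q + 1) with ha
        have hk0 : k ≠ 0 := by omega
        have ha2 : 2 ≤ a := (padicValNat_dvd_iff_le (by omega)).1 (by omega : 2 ^ 2 ∣ q + 1)
        have h3 : 2 ^ a ∣ k := by
          have h4 : 2 ^ (a + 1) ∣ k * 2 := (pow_dvd_pow 2 hlt).trans pow_padicValNat_dvd
          rw [pow_succ] at h4
          exact Nat.dvd_of_mul_dvd_mul_right two_pos h4
        have h5 : 2 ^ a ∣ q + 1 := pow_padicValNat_dvd
        have h6 : 2 ^ (a + 1) ∣ Fintype.card F - 1 := by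
          rw [hcard, pow_succ]
          exact Nat.mul_dvd_mul h5 (by omega)
        obtain ⟨w, hw⟩ := exists_of_order (F := F) h6
        have h7 : (w ^ (q + 1)) ^ 2 = 1 := by
          rw [← pow_mul, ← orderOf_dvd_iff_pow_eq_one, hw, pow_succ]
          exact Nat.mul_dvd_mul_right h5 2
        have h8 : w ^ (q + 1) ≠ 1 := by
          intro h8
          rw [← orderOf_dvd_iff_pow_eq_one, hw] at h8
          exact pow_succ_padicValNat_not_dvd (by omega) h8
        have h9 : (w ^ (q + 1) - 1) * (w ^ (q + 1) + 1) = 0 := by linear_combination h7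
        refine ⟨w, ?_, ?_⟩
        · rcases mul_eq_zero.1 h9 with h | h
          · exact absurd (by linear_combination h) h8
          · linear_combination h
        · have h10 : Even k := (even_iff_two_dvd).2 ((dvd_pow_self 2 (by omega)).trans h3)
          rw [h10.neg_pow, ← pow_mul, ← orderOf_dvd_iff_pow_eq_one, hw, pow_succ, mul_comm]
          exact Nat.mul_dvd_mul_left 2 h3
      · have hq1 : q % 4 = 1 := by omega
        have h6 : 4 ∣ Fintype.card F - 1 := by
          rw [hcard]; exact Dvd.dvd.mul_left (by omega) _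
        obtain ⟨w, hw⟩ := exists_of_order (F := F) h6
        have h7 : w ^ 2 = -1 := by
          have h8 : w ^ 2 ≠ 1 := by
            intro h8
            rw [← orderOf_dvd_iff_pow_eq_one, hw] at h8
            omega
          have h9 : (w ^ 2) ^ 2 = 1 := by
            rw [← pow_mul, ← orderOf_dvd_iff_pow_eq_one, hw]
          have h10 : (w ^ 2 - 1) * (w ^ 2 + 1) = 0 := by linear_combination h9
          rcases mul_eq_zero.1 h10 with h | h
          · exact absurd (by linear_combination h) h8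
          · linear_combination h
        refine ⟨w, ?_, ?_⟩
        · obtain ⟨t, ht⟩ : ∃ t, q + 1 = 2 * (2 * t + 1) := ⟨q / 4, by omega⟩
          rw [ht, pow_mul, h7, pow_add, pow_mul]
          norm_num
        · rw [h7]; norm_num
    have hz1 : (w ^ 2) ^ (q + 1) = 1 := by
      rw [← pow_mul, mul_comm, pow_mul, hw1]; norm_num
    obtain ⟨T, hT, hTr, hTd⟩ := exists_monomial (F := F) hz1 two_pos k
    have hTd' : LinearMap.det T = 1 := by
      rw [hTd]
      simpa using hw2
    have hB := frm_herm hσ hσ2 (k * 2)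
    have hV : Nd (hermForm (k * 2) F q) (⊤ : Submodule F (Fin (k * 2) → F)) := nd_herm (by omega)
    obtain ⟨hy2, hy⟩ := anti_of_sq hσ hB hT hw1 hTr
    have hw0 : w ≠ 0 := by
      rintro rfl
      rw [zero_pow (Nat.succ_ne_zero _)] at hw1
      have : (1 : F) = 0 := by linear_combination hw1
      exact one_ne_zero this
    obtain ⟨W, hW, hWn, hWm⟩ := h T hT hTd' ⟨_, hTr⟩ (by
      intro s hs
      have h3 : s ^ (q + 1) = 1 := norm_of_scalar hσ hB hV (exists_ne_zero (by omega)) (r := 1) hT (by rw [pow_one, hs])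
      obtain ⟨v, hv⟩ := exists_ne_zero (F := F) (n := k * 2) (by omega)
      have h4 : (T ^ 2) v = s ^ 2 • v := by rw [hs, smul_pow_end, one_pow]; rfl
      rw [hTr] at h4
      change w ^ 2 • v = s ^ 2 • v at h4
      have h5 : (w ^ 2 - s ^ 2) • v = 0 := by rw [sub_smul, h4, sub_self]
      have h6 : w ^ 2 - s ^ 2 = 0 := (smul_eq_zero.1 h5).resolve_right hv
      have h7 : (w - s) * (w + s) = 0 := by linear_combination h6
      have hev : Even (q + 1) := ⟨(q + 1) / 2, by omega⟩
      rcases mul_eq_zero.1 h7 with h | h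
      · have : w = s := by linear_combination h
        rw [this, h3] at hw1
        exact hm1 hw1.symm
      · have : w = -s := by linear_combination h
        rw [this, hev.neg_pow, h3] at hw1
        exact hm1 hw1.symm)
    apply hno2
    rw [← hWm]
    exact even_of_anti h2 hy2 hy hB ((inv_smul_iff (inv_ne_zero hw0)).2 hW) hWn
  · intro h T hT hTd hTz hns
    obtain ⟨z, hTr⟩ := hTz
    have hB := frm_herm hσ hσ2 n
    have hV : Nd (hermForm n F q) (⊤ : Submodule F (Fin n → F)) := nd_herm (by omega)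
    have hfr : finrank F (Fin n → F) = n := by simp
    have hz1 := norm_of_scalar hσ hB hV (exists_ne_zero (by omega)) hT hTr
    obtain ⟨w, rfl⟩ := sq_of_norm hF h2 hz1
    have hw0 : w ≠ 0 := by
      rintro rfl
      rw [zero_pow two_ne_zero, zero_pow (by omega)] at hz1
      exact zero_ne_one hz1
    have h9 : (w ^ (q + 1) - 1) * (w ^ (q + 1) + 1) = 0 := by
      have : (w ^ (q + 1)) ^ 2 = 1 := by rw [← pow_mul, mul_comm, pow_mul, hz1]
      linear_combination this
    rcases mul_eq_zero.1 h9 with hw | hw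
    · have hw1 : w ^ (q + 1) = 1 := by linear_combination hw
      have hwi : w⁻¹ ^ (q + 1) = 1 := by rw [inv_pow, hw1, inv_one]
      have hy := isom_smul hσ hB hT hwi
      have hyr : (w⁻¹ • T) ^ 2 = 1 := by
        rw [smul_pow_end, hTr, smul_smul, ← mul_pow, inv_mul_cancel₀ hw0, one_pow, one_smul]
      obtain ⟨W, hWi, hW, hWm⟩ := exists_nd_of_invol h2 hyr hy hB (kind_herm hne n) hV (m := m)
        (fun h => absurd h hne) (by rw [hfr]; omega)
      exact ⟨W, (inv_smul_iff (inv_ne_zero hw0)).1 hWi, hW, hWm⟩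
    · have hw1 : w ^ (q + 1) = -1 := by linear_combination hw
      obtain ⟨hy2, hy⟩ := anti_of_sq hσ hB hT hw1 hTr
      have htop := finrank_of_anti h2 hy2 hy hB (W := ⊤) (fun _ _ => trivial) hV
      rw [finrank_top, hfr, top_inf_eq, top_inf_eq] at htop
      rcases h with h | h | ⟨h, hq3⟩
      · exfalso
        rw [Nat.odd_iff] at h
        omega
      · obtain ⟨W, hWi, hW, hWm⟩ := exists_nd_of_anti h2 hy2 hy hB hV h (by rw [hfr]; omega)
        exact ⟨W, (inv_smul_iff (inv_ne_zero hw0)).1 hWi, hW, hWm⟩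
      · exfalso
        -- determinant
        have hdy := det_of_invol h2 hy2
        rw [LinearMap.det_smul, hTd, mul_one, hfr] at hdy
        obtain ⟨l, hl⟩ : ∃ l, n = 2 * l := ⟨finrank F ↥(cm (w⁻¹ • T)), by omega⟩
        have hfl : finrank F ↥(cm (w⁻¹ • T)) = l := by omega
        rw [hfl] at hdy
        have hwn : w ^ n = (-1) ^ l := by
          have h3 : w⁻¹ ^ n * w ^ n = 1 := by rw [← mul_pow, inv_mul_cancel₀ hw0, one_pow]
          rw [hdy] at h3
          have h4 : ((-1 : F) ^ l) * ((-1) ^ l) = 1 := by rw [← mul_pow]; norm_num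
          linear_combination ((-1 : F) ^ l) * h3 - (w ^ n) * h4
        set a := padicValNat 2 (q + 1) with ha
        set b := padicValNat 2 n with hb
        obtain ⟨s, hs⟩ : 2 ^ a ∣ q + 1 := pow_padicValNat_dvd
        obtain ⟨n', hn'⟩ : 2 ^ b ∣ n := pow_padicValNat_dvd
        have hso : s % 2 = 1 := by
          by_contra hse
          have : 2 ^ (a + 1) ∣ q + 1 := by
            rw [hs, pow_succ]; exact Nat.mul_dvd_mul_left _ (by omega)
          exact pow_succ_padicValNat_not_dvd (by omega) this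
        have hn'o : n' % 2 = 1 := by
          by_contra hse
          have : 2 ^ (b + 1) ∣ n := by
            rw [pow_succ, hn']; exact Nat.mul_dvd_mul_left _ (by omega)
          exact pow_succ_padicValNat_not_dvd (by omega) this
        have ha2 : 2 ≤ a := (padicValNat_dvd_iff_le (by omega)).1 (by omega : 2 ^ 2 ∣ q + 1)
        have h5 : w ^ (n * (2 ^ (a - b) * s)) = -1 := by
          have e1 : n * (2 ^ (a - b) * s) = (q + 1) * n' := by
            rw [hs, hn']
            have : 2 ^ a = 2 ^ b * 2 ^ (a - b) := by rw [← pow_add]; congr 1; omega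
            rw [this]; ring
          rw [e1, pow_mul, hw1]
          exact (Nat.odd_iff.2 hn'o).neg_one_pow
        have h6 : w ^ (n * (2 ^ (a - b) * s)) = 1 := by
          rw [pow_mul, hwn, ← pow_mul]
          apply Even.neg_one_pow
          have e2 : 2 * (l * (2 ^ (a - b) * s)) = 2 ^ a * (n' * s) := by
            have : 2 ^ a = 2 ^ b * 2 ^ (a - b) := by rw [← pow_add]; congr 1; omega
            calc 2 * (l * (2 ^ (a - b) * s)) = (2 * l) * (2 ^ (a - b) * s) := by ring
              _ = (2 ^ b * n') * (2 ^ (a - b) * s) := by rw [← hl, ← hn']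
              _ = 2 ^ a * (n' * s) := by rw [this]; ring
          obtain ⟨a', ha'⟩ : ∃ a', a = a' + 2 := ⟨a - 2, by omega⟩
          have e3 : 2 * (l * (2 ^ (a - b) * s)) = 2 * (2 * (2 ^ a' * (n' * s))) := by
            rw [e2]
            have : 2 ^ a = 2 ^ a' * 4 := by rw [ha', pow_add]; norm_num
            rw [this]; ring
          have e4 := Nat.eq_of_mul_eq_mul_left two_pos e3
          rw [e4]
          exact even_two_mul _
        rw [h5] at h6
        exact hm1 h6

end Cfsg.Agent.H951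
end

-- part: H951/MSum
section
/-!
# Multisets determined by the sums of truncated parts; multisets of pairs
-/

set_option autoImplicit false
set_option linter.unusedVariables false

namespace Cfsg.Agent.H951

section multiset

/-- A multiset of positive integers is determined by the sums `Σ (a - j)`. -/
theorem count_of_sums (μ : Multiset ℕ) {a : ℕ} (ha : 0 < a) :
    (μ.map fun x => x - (a - 1)).sum + (μ.map fun x => x - (a + 1)).sum =
      2 * (μ.map fun x => x - a).sum + μ.count a := by
  induction μ using Multiset.induction_on with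
  | empty => simp
  | cons x μ ih =>
    rw [Multiset.map_cons, Multiset.map_cons, Multiset.map_cons, Multiset.sum_cons, Multiset.sum_cons,
      Multiset.sum_cons, Multiset.count_cons]
    by_cases h : a = x
    · subst h
      rw [if_pos rfl]
      omega
    · rw [if_neg h]
      omega

theorem multiset_eq_of_sums {μ ν : Multiset ℕ} (hμ : ∀ a ∈ μ, 0 < a) (hν : ∀ a ∈ ν, 0 < a)
    (h : ∀ j, (μ.map fun x => x - j).sum = (ν.map fun x => x - j).sum) : μ = ν := by
  ext a
  rcases Nat.eq_zero_or_pos a with rfl | ha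
  · rw [Multiset.count_eq_zero_of_notMem fun h0 => absurd (hμ 0 h0) (lt_irrefl 0),
      Multiset.count_eq_zero_of_notMem fun h0 => absurd (hν 0 h0) (lt_irrefl 0)]
  · have h1 := count_of_sums μ ha
    have h2 := count_of_sums ν ha
    rw [h (a - 1), h (a + 1), h a] at h1
    omega

end multiset

section pairs

/-- The multiset of sizes of a multiset of pairs (multiplicity, size). -/
def parts (μ : Multiset (ℕ × ℕ)) : Multiset ℕ := (μ.map fun x => Multiset.replicate x.1 x.2).sum

@[simp] lemma parts_zero : parts 0 = 0 := rfl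

@[simp] lemma parts_cons (x : ℕ × ℕ) (μ : Multiset (ℕ × ℕ)) :
    parts (x ::ₘ μ) = Multiset.replicate x.1 x.2 + parts μ := by
  rw [parts, Multiset.map_cons, Multiset.sum_cons]; rfl

lemma two_rep (a : ℕ) (μ : Multiset ℕ) : Multiset.replicate 2 a + μ = a ::ₘ a ::ₘ μ := by
  rw [show Multiset.replicate 2 a = a ::ₘ {a} from rfl, Multiset.cons_add, Multiset.singleton_add]

lemma parts_add (μ ν : Multiset (ℕ × ℕ)) : parts (μ + ν) = parts μ + parts ν := by
  rw [parts, Multiset.map_add, Multiset.sum_add]; rfl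

lemma parts_sum (μ : Multiset (ℕ × ℕ)) (j : ℕ) :
    ((parts μ).map fun x => x - j).sum = (μ.map fun x => x.1 * (x.2 - j)).sum := by
  induction μ using Multiset.induction_on with
  | empty => simp
  | cons x μ ih =>
    rw [parts_cons, Multiset.map_add, Multiset.sum_add, ih, Multiset.map_cons, Multiset.sum_cons,
      Multiset.map_replicate, Multiset.sum_replicate, smul_eq_mul]

lemma parts_sum' (μ : Multiset (ℕ × ℕ)) : (parts μ).sum = (μ.map fun x => x.1 * x.2).sum := by
  have := parts_sum μ 0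
  simpa using this

lemma mem_parts {μ : Multiset (ℕ × ℕ)} {a : ℕ} (h : a ∈ parts μ) : ∃ x ∈ μ, x.2 = a := by
  induction μ using Multiset.induction_on with
  | empty => simp at h
  | cons x μ ih =>
    rw [parts_cons, Multiset.mem_add] at h
    rcases h with h | h
    · exact ⟨x, Multiset.mem_cons_self _ _, (Multiset.eq_of_mem_replicate h).symm⟩
    · obtain ⟨y, hy, rfl⟩ := ih h
      exact ⟨y, Multiset.mem_cons_of_mem hy, rfl⟩

/-- The types of blocks of the symplectic group in odd characteristic. -/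
def PSymp (p s a : ℕ) : Prop := (s = 1 ∧ Even a ∧ 0 < a ∧ a ≤ p) ∨ (s = 2 ∧ Odd a ∧ a ≤ p)

lemma PSymp.pos {p s a : ℕ} (h : PSymp p s a) : 0 < a ∧ a ≤ p := by
  rcases h with ⟨-, -, h1, h2⟩ | ⟨-, h1, h2⟩
  · exact ⟨h1, h2⟩
  · exact ⟨h1.pos, h2⟩

lemma parity_parts {p : ℕ} {μ : Multiset (ℕ × ℕ)} (hμ : ∀ x ∈ μ, PSymp p x.1 x.2) (a : ℕ) (ha : Odd a) :
    Even ((parts μ).count a) := by
  induction μ using Multiset.induction_on with
  | empty => simp
  | cons x μ ih =>
    rw [parts_cons, Multiset.count_add]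
    refine Even.add ?_ (ih fun y hy => hμ y (Multiset.mem_cons_of_mem hy))
    rw [Multiset.count_replicate]
    split_ifs with h
    · rcases hμ x (Multiset.mem_cons_self _ _) with ⟨-, h1, -⟩ | ⟨h1, -⟩
      · rw [h] at h1
        exact absurd ha (Nat.not_odd_iff_even.2 h1)
      · rw [h1]; exact even_two
    · exact Even.zero

lemma exists_pairs {p : ℕ} (μ₀ : Multiset ℕ) (h1 : ∀ a ∈ μ₀, 0 < a ∧ a ≤ p) (h2 : ∀ a, Odd a → Even (μ₀.count a)) :
    ∃ μ : Multiset (ℕ × ℕ), (∀ x ∈ μ, PSymp p x.1 x.2) ∧ parts μ = μ₀ := by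
  induction hn : Multiset.card μ₀ using Nat.strong_induction_on generalizing μ₀ with
  | _ n ih =>
    rcases Multiset.empty_or_exists_mem μ₀ with rfl | ⟨a, ha⟩
    · exact ⟨0, fun x hx => absurd hx (Multiset.notMem_zero x), rfl⟩
    obtain ⟨μ₁, rfl⟩ := Multiset.exists_cons_of_mem ha
    rcases Nat.even_or_odd a with he | ho
    · obtain ⟨μ, hμ, hp⟩ := ih (Multiset.card μ₁) (by rw [← hn, Multiset.card_cons]; omega) μ₁
        (fun b hb => h1 b (Multiset.mem_cons_of_mem hb)) (by
          intro b hb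
          have := h2 b hb
          rw [Multiset.count_cons_of_ne (by rintro rfl; exact Nat.not_odd_iff_even.2 he hb)] at this
          exact this) rfl
      refine ⟨(1, a) ::ₘ μ, ?_, by rw [parts_cons, hp]; rfl⟩
      intro x hx
      rcases Multiset.mem_cons.1 hx with rfl | hx
      · exact Or.inl ⟨rfl, he, (h1 a ha).1, (h1 a ha).2⟩
      · exact hμ x hx
    · have h3 := h2 a ho
      rw [Multiset.count_cons_self] at h3
      have h4 : a ∈ μ₁ := by
        by_contra h
        rw [Multiset.count_eq_zero_of_notMem h] at h3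
        exact absurd h3 (by decide)
      obtain ⟨μ₂, rfl⟩ := Multiset.exists_cons_of_mem h4
      obtain ⟨μ, hμ, hp⟩ := ih (Multiset.card μ₂) (by rw [← hn, Multiset.card_cons, Multiset.card_cons]; omega) μ₂
        (fun b hb => h1 b (Multiset.mem_cons_of_mem (Multiset.mem_cons_of_mem hb))) (by
          intro b hb
          have := h2 b hb
          by_cases hba : b = a
          · subst hba
            rw [Multiset.count_cons_self, Multiset.count_cons_self] at this
            obtain ⟨t, ht⟩ := this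
            exact ⟨t - 1, by omega⟩
          · rw [Multiset.count_cons_of_ne hba, Multiset.count_cons_of_ne hba] at this
            exact this) rfl
      refine ⟨(2, a) ::ₘ μ, ?_, by rw [parts_cons, hp, two_rep]⟩
      intro x hx
      rcases Multiset.mem_cons.1 hx with rfl | hx
      · exact Or.inr ⟨rfl, ho, (h1 a ha).2⟩
      · exact hμ x hx

lemma exists_sub_pairs {p : ℕ} {μ : Multiset (ℕ × ℕ)} (hμ : ∀ x ∈ μ, PSymp p x.1 x.2) (ν₀ : Multiset ℕ)
    (hν : ν₀ ≤ parts μ) (h2 : ∀ a, Odd a → Even (ν₀.count a)) : ∃ ν ≤ μ, parts ν = ν₀ := by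
  induction μ using Multiset.induction_on generalizing ν₀ with
  | empty =>
    rw [parts_zero] at hν
    rw [Multiset.le_zero.1 hν]
    exact ⟨0, le_rfl, rfl⟩
  | cons x μ ih =>
    have hμ' : ∀ y ∈ μ, PSymp p y.1 y.2 := fun y hy => hμ y (Multiset.mem_cons_of_mem hy)
    obtain ⟨s, a⟩ := x
    rw [parts_cons] at hν
    rcases hμ (s, a) (Multiset.mem_cons_self _ _) with ⟨hs, ha, -⟩ | ⟨hs, ha, -⟩
    · simp only at hs ha hν
      subst hs
      rw [Multiset.replicate_one, Multiset.singleton_add] at hν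
      by_cases hm : a ∈ ν₀
      · obtain ⟨ν₁, rfl⟩ := Multiset.exists_cons_of_mem hm
        obtain ⟨ν, hνμ, hp⟩ := ih hμ' ν₁ ((Multiset.cons_le_cons_iff _).1 hν) (by
          intro b hb
          have := h2 b hb
          rw [Multiset.count_cons_of_ne (by rintro rfl; exact Nat.not_odd_iff_even.2 ha hb)] at this
          exact this)
        exact ⟨(1, a) ::ₘ ν, (Multiset.cons_le_cons_iff _).2 hνμ, by rw [parts_cons, hp]; rfl⟩
      · obtain ⟨ν, hνμ, hp⟩ := ih hμ' ν₀ ((Multiset.le_cons_of_notMem hm).1 hν) h2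
        exact ⟨ν, hνμ.trans (Multiset.le_cons_self _ _), hp⟩
    · simp only at hs ha hν
      subst hs
      rw [show Multiset.replicate 2 a = a ::ₘ {a} from rfl, Multiset.cons_add, Multiset.singleton_add] at hν
      by_cases hm : a ∈ ν₀
      · obtain ⟨ν₁, rfl⟩ := Multiset.exists_cons_of_mem hm
        have h3 := h2 a ha
        rw [Multiset.count_cons_self] at h3
        have h4 : a ∈ ν₁ := by
          by_contra h
          rw [Multiset.count_eq_zero_of_notMem h] at h3
          exact absurd h3 (by decide)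
        obtain ⟨ν₂, rfl⟩ := Multiset.exists_cons_of_mem h4
        obtain ⟨ν, hνμ, hp⟩ := ih hμ' ν₂
          ((Multiset.cons_le_cons_iff _).1 ((Multiset.cons_le_cons_iff _).1 hν)) (by
          intro b hb
          have := h2 b hb
          by_cases hba : b = a
          · subst hba
            rw [Multiset.count_cons_self, Multiset.count_cons_self] at this
            obtain ⟨t, ht⟩ := this
            exact ⟨t - 1, by omega⟩
          · rw [Multiset.count_cons_of_ne hba, Multiset.count_cons_of_ne hba] at this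
            exact this)
        exact ⟨(2, a) ::ₘ ν, (Multiset.cons_le_cons_iff _).2 hνμ, by rw [parts_cons, hp, two_rep]⟩
      · obtain ⟨ν, hνμ, hp⟩ := ih hμ' ν₀ ((Multiset.le_cons_of_notMem hm).1 ((Multiset.le_cons_of_notMem hm).1 hν)) h2
        exact ⟨ν, hνμ.trans (Multiset.le_cons_self _ _), hp⟩

end pairs

end Cfsg.Agent.H951
end

-- part: H951/UUnip
section
/-!
# Unipotent elements of `PSU_n(q)` on nondegenerate `m`-spaces
-/

set_option autoImplicit false
set_option linter.unusedSectionVars false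
set_option linter.unusedVariables false

namespace Cfsg.Agent.H951

open Module Polynomial Cfsg

variable {F : Type*} [Field F] [Fintype F] {q n m p : ℕ}

/-- The case `r = p`. -/
theorem ustat_p [Fact p.Prime] [CharP F p] (hF : Fintype.card F = q ^ 2) (hn : 3 ≤ n) (hm : 1 ≤ m)
    (hmn : 2 * m < n) :
    UStat F n q m p ↔ (∀ μ : Multiset ℕ, (∀ a ∈ μ, 0 < a ∧ a ≤ p) → μ.sum = n → ∃ ν : Multiset ℕ, ν ≤ μ ∧ ν.sum = m) := by
  have hpP : p.Prime := Fact.out
  have hq := ClassicalGeometry.GUBasic.two_le hF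
  obtain ⟨σ, hσ, hσ2, hne⟩ := exists_sig hF
  have hB := frm_herm hσ hσ2 n
  have hK : Kind σ 1 (hermForm n F q) := kind_herm hne n
  have hV : Nd (hermForm n F q) (⊤ : Submodule F (Fin n → F)) := nd_herm (by omega)
  have hfr : finrank F (Fin n → F) = n := by simp
  have hpq : p ∣ q := by
    obtain ⟨k, -, hk⟩ := FiniteField.card F p
    have h1 : p ∣ q ^ 2 := by rw [← hF, hk]; exact dvd_pow_self p k.2.ne'
    exact hpP.dvd_of_dvd_pow h1
  have hco : Nat.Coprime p (q + 1) := by
    rw [hpP.coprime_iff_not_dvd]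
    intro h
    have h1 := (Nat.dvd_add_right hpq).1 h
    exact hpP.one_lt.ne' (Nat.dvd_one.1 h1)
  rw [ustat_iff]
  constructor
  · intro h μ hμ hsum
    -- realise μ
    have hreal : ∀ s a, (s = 1 ∧ 0 < a ∧ a ≤ p) → ∀ U : Submodule F (Fin n → F), Nd (hermForm n F q) U →
        finrank F U = s * a → ∃ N : Module.End F (Fin n → F), Skew (hermForm n F q) N ∧
      (∀ v ∈ hB.perp U, N v = 0) ∧ (∀ v, N v ∈ U) ∧ N ^ p = 0 ∧ Blk (hermForm n F q) N U s a := by
      rintro s a ⟨rfl, ha, hap⟩ U hU hUd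
      obtain ⟨k, rfl⟩ : ∃ k, a = k + 1 := ⟨a - 1, by omega⟩
      obtain ⟨c, hc0, hc⟩ : ∃ c : F, c ≠ 0 ∧ c = (-1) ^ k * σ c := by
        rcases neg_one_pow_eq_or F k with h1 | h1
        · exact ⟨1, one_ne_zero, by rw [h1, map_one, one_mul]⟩
        · obtain ⟨c, hc⟩ := ClassicalGeometry.InvolutiveNorm.exists_sigma_ne hne
          refine ⟨c - σ c, sub_ne_zero.2 hc.symm, ?_⟩
          rw [h1, map_sub, hσ2]; ring
      obtain ⟨N, h1, h2, h3, h4, h5⟩ := exists_block_real hB hK (fun h => absurd h hne) (s := 1) (k := k)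
        (fun _ _ => c) (fun _ _ => by rw [mul_one]; exact hc) (by
          intro x hx
          have := hx 0
          rw [Fin.sum_univ_one] at this
          ext b
          rw [Subsingleton.elim b 0]
          exact (mul_eq_zero.1 this).resolve_right hc0) hU hUd
      refine ⟨N, h1, h2, h3, ?_, h5⟩
      obtain ⟨t, ht⟩ : ∃ t, p = t + (k + 1) := ⟨p - (k + 1), by omega⟩
      rw [ht, pow_add, h4, mul_zero]
    obtain ⟨N, h1, -, -, h4, h5⟩ := exists_real hB hK hpP.ne_zero hreal (fun h => absurd h hne)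
      (μ.map fun a => (1, a)) (by
        intro x hx
        obtain ⟨a, ha, rfl⟩ := Multiset.mem_map.1 hx
        exact ⟨rfl, hμ a ha⟩) ⊤ hV (by
        rw [finrank_top, hfr, ← hsum, Multiset.map_map]
        simp)
    by_cases hN0 : N = 0
    · -- all parts are 1
      have h6 := h5.rank hB 1
      rw [hN0, pow_one, Submodule.map_zero, finrank_bot, Multiset.map_map] at h6
      simp only [Function.comp_def, one_mul] at h6
      have h7 : ∀ a ∈ μ, a = 1 := by
        intro a ha
        have h8 : a - 1 ∈ μ.map fun x => x - 1 := Multiset.mem_map.2 ⟨a, ha, rfl⟩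
        have h9 := Multiset.sum_eq_zero_iff.1 h6.symm _ h8
        have := (hμ a ha).1
        omega
      have h8 : μ = Multiset.replicate n 1 := by
        rw [Multiset.eq_replicate]
        refine ⟨?_, h7⟩
        have h9 : μ = Multiset.replicate (Multiset.card μ) 1 := Multiset.eq_replicate_card.2 h7
        rw [h9, Multiset.sum_replicate] at hsum
        simpa using hsum
      refine ⟨Multiset.replicate m 1, ?_, by simp⟩
      rw [h8]
      exact (Multiset.replicate_le_replicate 1).2 (by omega)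
    obtain ⟨y, hy, hyp, hyW, hy1⟩ := exists_isom_of_skew (p := p) hB h1 h4
    obtain ⟨W, hW, hWn, hWm⟩ := h y hy (det_eq_one_of_coprime hF hy hyp hco) ⟨1, by rw [hyp, one_smul]⟩ (by
      intro z hz
      have h2 : z ^ (q + 1) = 1 := norm_of_scalar hσ hB hV (exists_ne_zero (by omega)) (r := 1) hy (by rw [pow_one, hz])
      have h3 : z ^ p = 1 := by
        obtain ⟨v, hv⟩ := exists_ne_zero (F := F) (n := n) (by omega)
        have h4 : (y ^ p) v = z ^ p • v := by rw [hz, smul_pow_end, one_pow]; rfl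
        rw [hyp] at h4
        change v = z ^ p • v at h4
        have h5 : (z ^ p - 1) • v = 0 := by rw [sub_smul, ← h4, one_smul, sub_self]
        rcases smul_eq_zero.1 h5 with h | h
        · linear_combination h
        · exact absurd h hv
      have h6 : orderOf z ∣ Nat.gcd p (q + 1) :=
        Nat.dvd_gcd (orderOf_dvd_of_pow_eq_one h3) (orderOf_dvd_of_pow_eq_one h2)
      rw [hco, Nat.dvd_one, orderOf_eq_one_iff] at h6
      exact hN0 (hy1 (by rw [hz, h6, one_smul])))
    have hWN : Inv N W := (hyW W).1 hW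
    have hperp : ∀ W, Inv N W → Inv N (hB.perp W) := fun W hW => h1.inv_perp hB hW
    obtain ⟨ν, hν, hν1⟩ := exists_jt hB hperp (step_herm hne hB h1 h4) W hWN hWn
    have hWp := hB.nd_perp_inf hV hWn le_top
    rw [inf_top_eq] at hWp
    obtain ⟨ν', hν', hν'1⟩ := exists_jt hB hperp (step_herm hne hB h1 h4) (hB.perp W) (hperp _ hWN) hWp
    have hadd := hν.add hB hν' fun u hu w hw => hB.eq_zero_comm.1 (hw u hu)
    rw [(hB.isCompl_perp hWn).sup_eq_top] at hadd
    have hpairs : ∀ (κ : Multiset (ℕ × ℕ)) (hκ : ∀ x ∈ κ, x.1 = 1 ∧ 0 < x.2 ∧ x.2 ≤ p) (j : ℕ),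
        (κ.map fun x => x.1 * (x.2 - j)).sum = ((κ.map Prod.snd).map fun x => x - j).sum := by
      intro κ hκ j
      rw [Multiset.map_map]
      congr 1
      apply Multiset.map_congr rfl
      intro x hx
      rw [(hκ x hx).1, one_mul]; rfl
    have hall : ∀ x ∈ ν + ν', x.1 = 1 ∧ 0 < x.2 ∧ x.2 ≤ p := by
      intro x hx
      rcases Multiset.mem_add.1 hx with h | h
      · exact hν1 x h
      · exact hν'1 x h
    have heq : μ = (ν + ν').map Prod.snd := by
      apply multiset_eq_of_sums (fun a ha => (hμ a ha).1)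
      · intro a ha
        obtain ⟨x, hx, rfl⟩ := Multiset.mem_map.1 ha
        exact (hall x hx).2.1
      · intro j
        rw [← hpairs _ hall, ← hadd.rank hB j, h5.rank hB j, Multiset.map_map]
        simp
    refine ⟨ν.map Prod.snd, ?_, ?_⟩
    · rw [heq, Multiset.map_add]
      exact Multiset.le_add_right _ _
    · have h6 := hν.finrank_eq hB
      rw [hWm] at h6
      rw [h6]
      congr 1
      apply Multiset.map_congr rfl
      intro x hx
      rw [(hν1 x hx).1, one_mul]
  · intro h T hT hTd hTz hns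
    obtain ⟨z, hTr⟩ := hTz
    have hz1 := norm_of_scalar hσ hB hV (exists_ne_zero (by omega)) hT hTr
    obtain ⟨w, hw1, hw⟩ := exists_root_of_coprime hz1 hco
    have hw0 : w ≠ 0 := by rintro rfl; rw [zero_pow (by omega)] at hw1; exact zero_ne_one hw1
    have hwi : w⁻¹ ^ (q + 1) = 1 := by rw [inv_pow, hw1, inv_one]
    have hy := isom_smul hσ hB hT hwi
    have hyr : (w⁻¹ • T) ^ p = 1 := by
      rw [smul_pow_end, hTr, smul_smul, ← hw, ← mul_pow, inv_mul_cancel₀ hw0, one_pow, one_smul]
    obtain ⟨N, h1, h4, hyW⟩ := exists_skew_of_isom (p := p) hB hy hyr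
    obtain ⟨μ, hμ, hμ1⟩ := exists_jt hB (fun W hW => h1.inv_perp hB hW) (step_herm hne hB h1 h4) ⊤
      (fun _ _ => trivial) hV
    have hd := hμ.finrank_eq hB
    rw [finrank_top, hfr] at hd
    have hmap : μ = (μ.map Prod.snd).map fun a => (1, a) := by
      rw [Multiset.map_map]
      conv_lhs => rw [← Multiset.map_id μ]
      apply Multiset.map_congr rfl
      intro x hx
      exact Prod.ext (hμ1 x hx).1 rfl
    obtain ⟨ν, hν, hνm⟩ := h (μ.map Prod.snd) (by
      intro a ha
      obtain ⟨x, hx, rfl⟩ := Multiset.mem_map.1 ha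
      exact (hμ1 x hx).2) (by
      rw [hd]
      congr 1
      apply Multiset.map_congr rfl
      intro x hx
      rw [(hμ1 x hx).1, one_mul])
    have hle : ν.map (fun a => (1, a)) ≤ μ := by
      rw [hmap]; exact Multiset.map_le_map hν
    obtain ⟨W, -, hW⟩ := hμ.sub hle
    refine ⟨W, (inv_smul_iff (inv_ne_zero hw0)).1 ((hyW W).2 hW.inv), hW.nd hB, ?_⟩
    rw [hW.finrank_eq hB, ← hνm, Multiset.map_map]
    simp

end Cfsg.Agent.H951
end
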